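import Cfsg.Agent.H83.Offender
import Cfsg.Agent.H72.SLModuleBound
import Mathlib

/-!
Steps for the bound `|A|² ≤ |V : C_V(A)|`: from `C_V(B)` down to `C_V(B A')`, either by an odd
order group on which `A'` acts faithfully, or by one involution of `A'` and a conjugate of it.
-/

set_option autoImplicit false
set_option linter.style.haveILetI false

namespace Cfsg.Agent.H34.Suz

open Subgroup
open Cfsg.Agent.H83 (fixedSub mem_fixedSub delta delta_apply delta_comm)

variable {H V : Type*} [Group H] [CommGroup V] {φ : H →* MulAut V}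

theorem el_comm {A : Subgroup H} (hA : ∀ a ∈ A, a * a = 1) {a b : H} (ha : a ∈ A) (hb : b ∈ A) :
    a * b = b * a := by
  have h := hA _ (mul_mem ha hb)
  calc a * b = (a * b)⁻¹ := eq_inv_of_mul_eq_one_left h
    _ = b⁻¹ * a⁻¹ := mul_inv_rev a b
    _ = b * a := by rw [inv_eq_of_mul_eq_one_right (hA b hb), inv_eq_of_mul_eq_one_right (hA a ha)]

/-- In an elementary abelian 2-group every subgroup has a complement. -/
theorem exists_compl [Finite H] {A B : Subgroup H} (hA : ∀ a ∈ A, a * a = 1) (hBA : B ≤ A) :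
    ∃ A' ≤ A, B ⊔ A' = A ∧ B ⊓ A' = ⊥ ∧ Nat.card A = Nat.card B * Nat.card A' := by
  have hprod : ∀ C : Subgroup H, C ≤ A → ∀ x ∈ B ⊔ C, ∃ b ∈ B, ∃ c ∈ C, x = b * c := by
    intro C hC x hx
    rw [sup_eq_closure] at hx
    induction hx using closure_induction with
    | mem y hy =>
      rcases hy with hy | hy
      · exact ⟨y, hy, 1, one_mem _, (mul_one y).symm⟩
      · exact ⟨1, one_mem _, y, hy, (one_mul y).symm⟩
    | one => exact ⟨1, one_mem _, 1, one_mem _, (one_mul 1).symm⟩
    | mul y z _ _ hy hz =>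
      obtain ⟨b, hb, c, hc, rfl⟩ := hy
      obtain ⟨b', hb', c', hc', rfl⟩ := hz
      refine ⟨b * b', mul_mem hb hb', c * c', mul_mem hc hc', ?_⟩
      rw [mul_assoc b c, ← mul_assoc c b' c', el_comm hA (hC hc) (hBA hb'), mul_assoc b', ← mul_assoc b b']
    | inv y _ hy =>
      obtain ⟨b, hb, c, hc, rfl⟩ := hy
      exact ⟨b⁻¹, inv_mem hb, c⁻¹, inv_mem hc, by
        rw [mul_inv_rev, el_comm hA (inv_mem (hC hc)) (inv_mem (hBA hb))]⟩
  obtain ⟨A', -, hmax⟩ := Finite.exists_le_maximal (p := fun C : Subgroup H => C ≤ A ∧ B ⊓ C = ⊥)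
    (a := ⊥) ⟨bot_le, inf_bot_eq B⟩
  obtain ⟨hA'A, hinf⟩ := hmax.prop
  have hsup : B ⊔ A' = A := by
    refine le_antisymm (sup_le hBA hA'A) fun a ha => ?_
    by_contra hna
    have hle : A' ⊔ zpowers a ≤ A := sup_le hA'A (zpowers_le.2 ha)
    have hP : A' ⊔ zpowers a ≤ A ∧ B ⊓ (A' ⊔ zpowers a) = ⊥ := by
      refine ⟨hle, (Subgroup.eq_bot_iff_forall _).2 ?_⟩
      rintro y ⟨hyB, hy⟩
      have key : ∀ y ∈ A' ⊔ zpowers a, y ∈ A' ∨ ∃ c ∈ A', y = c * a := by
        intro y hy
        rw [sup_eq_closure] at hy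
        induction hy using closure_induction with
        | mem z hz =>
          rcases hz with hz | hz
          · exact Or.inl hz
          · obtain ⟨k, rfl⟩ := mem_zpowers_iff.1 hz
            rcases Int.even_or_odd k with ⟨i, rfl⟩ | ⟨i, rfl⟩
            · left
              rw [← two_mul, zpow_mul, zpow_two, hA a ha, one_zpow]; exact one_mem _
            · right
              exact ⟨1, one_mem _, by rw [zpow_add_one, zpow_mul, zpow_two, hA a ha, one_zpow]⟩
        | one => exact Or.inl (one_mem _)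
        | mul z w _ _ hz hw =>
          rcases hz with hz | ⟨c, hc, rfl⟩ <;> rcases hw with hw | ⟨c', hc', rfl⟩
          · exact Or.inl (mul_mem hz hw)
          · exact Or.inr ⟨z * c', mul_mem hz hc', (mul_assoc _ _ _).symm⟩
          · exact Or.inr ⟨c * w, mul_mem hc hw, by
              rw [mul_assoc, mul_assoc, el_comm hA ha (hA'A hw)]⟩
          · refine Or.inl ?_
            rw [mul_assoc c a, ← mul_assoc a c' a, el_comm hA ha (hA'A hc'), mul_assoc c', hA a ha, mul_one]
            exact mul_mem hc hc'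
        | inv z _ hz =>
          rcases hz with hz | ⟨c, hc, rfl⟩
          · exact Or.inl (inv_mem hz)
          · exact Or.inr ⟨c, hc, by rw [inv_eq_of_mul_eq_one_right (hA _ (mul_mem (hA'A hc) ha))]⟩
      rcases key y hy with h | ⟨c, hc, rfl⟩
      · exact mem_bot.1 (hinf.le ⟨hyB, h⟩)
      · refine absurd ?_ hna
        have : a = c⁻¹ * (c * a) := (inv_mul_cancel_left c a).symm
        rw [this]
        exact mul_mem (mem_sup_right (inv_mem hc)) (mem_sup_left hyB)
    exact hna (mem_sup_right (hmax.le_of_ge hP le_sup_left (mem_sup_right (mem_zpowers a))))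
  refine ⟨A', hA'A, hsup, hinf, ?_⟩
  let f : B × A' → A := fun p => ⟨(p.1 : H) * p.2, mul_mem (hBA p.1.2) (hA'A p.2.2)⟩
  have hbij : Function.Bijective f := by
    refine ⟨fun p p' h => ?_, fun x => ?_⟩
    · have h : (p.1 : H) * p.2 = p'.1 * p'.2 := congrArg Subtype.val h
      have hm : (p'.1 : H)⁻¹ * p.1 ∈ B ⊓ A' := ⟨B.mul_mem (B.inv_mem p'.1.2) p.1.2, by
        have e : (p'.1 : H)⁻¹ * p.1 = p'.2 * (p.2 : H)⁻¹ := by
          rw [eq_mul_inv_iff_mul_eq, mul_assoc, h, inv_mul_cancel_left]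
        rw [e]; exact A'.mul_mem p'.2.2 (A'.inv_mem p.2.2)⟩
      rw [hinf, mem_bot, inv_mul_eq_one] at hm
      rw [hm, mul_left_cancel_iff] at h
      exact Prod.ext (Subtype.ext hm.symm) (Subtype.ext h)
    · obtain ⟨b, hb, c, hc, e⟩ := hprod A' hA'A x (hsup.symm ▸ x.2)
      exact ⟨(⟨b, hb⟩, ⟨c, hc⟩), Subtype.ext e.symm⟩
  rw [← Nat.card_eq_of_bijective f hbij, Nat.card_prod]

theorem fixedSub_sup (φ : H →* MulAut V) (B C : Subgroup H) :
    fixedSub φ ((B ⊔ C : Subgroup H) : Set H) = fixedSub φ (B : Set H) ⊓ fixedSub φ (C : Set H) := by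
  refine le_antisymm (le_inf (fun v hv s hs => hv s (mem_sup_left hs))
    (fun v hv s hs => hv s (mem_sup_right hs))) fun v hv s hs => ?_
  have hs' : s ∈ B ⊔ C := hs
  rw [sup_eq_closure] at hs'
  induction hs' using closure_induction with
  | mem x hx =>
    rcases hx with hx | hx
    · exact hv.1 x hx
    · exact hv.2 x hx
  | one => rw [map_one, MulAut.one_apply]
  | mul x y hx hy ihx ihy => rw [map_mul, MulAut.mul_apply, ihy (sup_eq_closure B C ▸ hy), ihx (sup_eq_closure B C ▸ hx)]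
  | inv x hx ih =>
    conv_lhs => rw [← ih (sup_eq_closure B C ▸ hx)]
    rw [← MulAut.mul_apply, ← map_mul, inv_mul_cancel, map_one, MulAut.one_apply]

theorem fixedSub_mem_of_commute {B : Set H} {g : H} (hg : ∀ b ∈ B, b * g = g * b) {v : V}
    (hv : v ∈ fixedSub φ B) : φ g v ∈ fixedSub φ B := fun b hb => by
  rw [← MulAut.mul_apply, ← map_mul, hg b hb, map_mul, MulAut.mul_apply, hv b hb]

/-- An element of odd order commuting with an elementary 2-group `B` and trivial on `C_V(B)` is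
trivial on `V`. -/
theorem ab_lemma [Finite H] (hV : ∀ v : V, v * v = 1) {B : Subgroup H} (hB : ∀ b ∈ B, b * b = 1) {x : H}
    (hx : Odd (orderOf x)) (hxB : ∀ b ∈ B, b * x = x * b)
    (hfix : ∀ v ∈ fixedSub φ (B : Set H), φ x v = v) : φ x = 1 := by
  by_contra hne
  have hne' : ¬ (⊤ : Subgroup V) ≤ fixedSub φ ({x} : Set H) := fun h =>
    hne (MulEquiv.ext fun v => h (mem_top v) x rfl)
  obtain ⟨w, -, hw, hwB⟩ := H83.exists_fixed_mod φ hV (B : Set H) hB
    (fun b hb c hc => el_comm hB hb hc) ⊤ (fixedSub φ ({x} : Set H))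
    (fun _ _ _ _ => mem_top _) (fun b hb v hv => fixedSub_mem_of_commute
      (fun s hs => by rw [Set.mem_singleton_iff] at hs; subst hs; exact (hxB b hb).symm) hv) hne'
  refine hw fun s hs => ?_
  rw [Set.mem_singleton_iff] at hs; subst hs
  have hd : φ s (delta φ s w) = delta φ s w := hfix _ fun b hb => by
    have h2 : φ b (delta φ s w) / delta φ s w = 1 := by
      rw [← delta_apply, delta_apply φ b, delta_comm φ (hxB b hb), ← map_div]
      show delta φ s (delta φ b w) = 1
      rw [delta_apply]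
      exact div_eq_one.2 (hwB b hb s rfl)
    exact div_eq_one.1 h2
  have key : ∀ n : ℕ, φ (s ^ n) w = w * delta φ s w ^ n := by
    intro n
    induction n with
    | zero => simp
    | succ n ih =>
      rw [pow_succ', map_mul, MulAut.mul_apply, ih, map_mul, map_pow, hd, pow_succ', ← mul_assoc,
        delta_apply]
      simp
  have h := key (orderOf s)
  obtain ⟨t, ht⟩ := hx
  rw [pow_orderOf_eq_one, map_one, MulAut.one_apply, ht, pow_succ, pow_mul, sq, hV, one_pow, one_mul,
    left_eq_mul, delta_apply, div_eq_one] at h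
  exact h

/-- The action of `C_H(B)` on `C_V(B)`. -/
def resHom (φ : H →* MulAut V) (B : Subgroup H) :
    ↥(centralizer (B : Set H)) →* MulAut ↥(fixedSub φ (B : Set H)) :=
  MonoidHom.mk' (fun g =>
    { toFun := fun v => ⟨φ g v, fixedSub_mem_of_commute (fun b hb => mem_centralizer_iff.1 g.2 b hb) v.2⟩
      invFun := fun v => ⟨φ (g⁻¹ : ↥(centralizer (B : Set H))) v,
        fixedSub_mem_of_commute (fun b hb => mem_centralizer_iff.1 (g⁻¹).2 b hb) v.2⟩
      left_inv := fun v => Subtype.ext (by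
        show φ _ (φ g v) = v
        rw [← MulAut.mul_apply, ← map_mul, Subgroup.coe_inv, inv_mul_cancel, map_one, MulAut.one_apply])
      right_inv := fun v => Subtype.ext (by
        show φ g (φ _ v) = v
        rw [← MulAut.mul_apply, ← map_mul, Subgroup.coe_inv, mul_inv_cancel, map_one, MulAut.one_apply])
      map_mul' := fun v w => Subtype.ext (map_mul (φ g) (v : V) w) }) fun g h => by
    apply MulEquiv.ext; intro v; apply Subtype.ext
    show φ ((g * h : ↥(centralizer (B : Set H))) : H) (v : V) = φ g (φ h v)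
    rw [Subgroup.coe_mul, map_mul, MulAut.mul_apply]

theorem resHom_apply (φ : H →* MulAut V) (B : Subgroup H) (g : ↥(centralizer (B : Set H)))
    (v : ↥(fixedSub φ (B : Set H))) : ((resHom φ B g v : ↥(fixedSub φ (B : Set H))) : V) = φ g v := rfl

theorem index_fixedSub_le [Finite V] {B A' : Subgroup H} {n : ℕ}
    (h : n ≤ (fixedSub φ ((B ⊔ A' : Subgroup H) : Set H)).relIndex (fixedSub φ (B : Set H))) :
    n * (fixedSub φ (B : Set H)).index ≤ (fixedSub φ ((B ⊔ A' : Subgroup H) : Set H)).index := by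
  rw [← relIndex_mul_index (show fixedSub φ ((B ⊔ A' : Subgroup H) : Set H) ≤ fixedSub φ (B : Set H)
    from fun v hv s hs => hv s (mem_sup_left hs))]
  exact Nat.mul_le_mul_right _ h

/-- The step given by an odd order group. -/
theorem step_odd [Finite H] [Finite V] (hV : ∀ v : V, v * v = 1)
    (hf : ∀ x : H, Odd (orderOf x) → φ x = 1 → x = 1) {B A' X : Subgroup H}
    (hel : ∀ a ∈ B ⊔ A', a * a = 1) (hX : Odd (Nat.card X)) (hXB : X ≤ centralizer (B : Set H))
    (hAX : A' ≤ normalizer (X : Set H)) (hC : ∀ a ∈ A', (∀ x ∈ X, a * x = x * a) → a = 1)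
    (h3 : ∀ x ∈ X, ∀ a ∈ A', x ^ 3 = 1 → a * x * a = x⁻¹ → x = 1) :
    Nat.card A' ^ 2 * (fixedSub φ (B : Set H)).index ≤
      (fixedSub φ ((B ⊔ A' : Subgroup H) : Set H)).index := by
  have hA'C : A' ≤ centralizer (B : Set H) := fun a ha => mem_centralizer_iff.2 fun b hb =>
    el_comm hel (mem_sup_left hb) (mem_sup_right ha)
  set C := centralizer (B : Set H)
  haveI : IsMulCommutative ↥(A'.subgroupOf C) := ⟨⟨fun a b => Subtype.ext (Subtype.ext
    (el_comm hel (mem_sup_right (mem_subgroupOf.1 a.2)) (mem_sup_right (mem_subgroupOf.1 b.2))))⟩⟩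
  have hb := (H83.offender_bound (resHom φ B) (fun v => Subtype.ext (hV v)) (X.subgroupOf C)
    (by rwa [Nat.card_congr (subgroupOfEquivOfLe hXB).toEquiv])
    (fun x hx hφx => Subtype.ext (hf x
      (hX.of_dvd_nat (Subgroup.orderOf_dvd_natCard X (mem_subgroupOf.1 hx))) (ab_lemma hV
        (fun b hb => hel b (mem_sup_left hb))
        (hX.of_dvd_nat (Subgroup.orderOf_dvd_natCard X (mem_subgroupOf.1 hx)))
        (fun b hb => mem_centralizer_iff.1 x.2 b hb)
        (fun v hv => by
          have h := congrArg Subtype.val (DFunLike.congr_fun hφx (⟨v, hv⟩ : ↥(fixedSub φ (B : Set H))))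
          rwa [resHom_apply, MulAut.one_apply] at h))))
    (A'.subgroupOf C) inferInstance
    (fun a ha => Subtype.ext (hel _ (mem_sup_right (mem_subgroupOf.1 ha))))
    (fun a ha => by
      rw [mem_normalizer_iff]
      intro x
      simp only [mem_subgroupOf, Subgroup.coe_mul, Subgroup.coe_inv]
      exact mem_normalizer_iff.1 (hAX (mem_subgroupOf.1 ha)) x)
    (fun a ha hc => Subtype.ext (hC a (mem_subgroupOf.1 ha) fun x hx =>
      congrArg Subtype.val (hc ⟨x, hXB hx⟩ (mem_subgroupOf.2 hx))))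
    (fun x hx a ha hx3 hax => Subtype.ext (h3 x (mem_subgroupOf.1 hx) a (mem_subgroupOf.1 ha)
      (congrArg Subtype.val hx3) (congrArg Subtype.val hax)))).1
  rw [Nat.card_congr (subgroupOfEquivOfLe hA'C).toEquiv] at hb
  refine index_fixedSub_le (hb.trans (le_of_eq ?_))
  have e : fixedSub (resHom φ B) (A'.subgroupOf C : Set C) =
      (fixedSub φ (A' : Set H)).subgroupOf (fixedSub φ (B : Set H)) := by
    ext v
    refine ⟨fun hv a ha => congrArg Subtype.val (hv ⟨a, hA'C ha⟩ ha), fun hv s hs => Subtype.ext (hv s hs)⟩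
  rw [e, fixedSub_sup, inf_comm]
  exact (inf_relIndex_right _ _).symm

/-- The step given by an involution and a conjugate of it. -/
theorem step_pair [Finite H] [Finite V] (hV : ∀ v : V, v * v = 1)
    (hf : ∀ x : H, Odd (orderOf x) → φ x = 1 → x = 1) {B A' : Subgroup H}
    (hel : ∀ a ∈ B ⊔ A', a * a = 1) {a d : H} (ha : a ∈ A') (hd : d ∈ centralizer (B : Set H))
    {r N : ℕ} (hr : r.Prime) (hr2 : r ≠ 2) (hrd : r ∣ orderOf (a * (d * a * d⁻¹)))
    (hN : ∀ k, r ∣ 2 ^ k - 1 → N ∣ k) (hA' : Nat.card A' ^ 4 ≤ 2 ^ N) :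
    Nat.card A' ^ 2 * (fixedSub φ (B : Set H)).index ≤
      (fixedSub φ ((B ⊔ A' : Subgroup H) : Set H)).index := by
  haveI : Fact (Nat.Prime 2) := ⟨Nat.prime_two⟩
  haveI : Fact r.Prime := ⟨hr⟩
  have haC : a ∈ centralizer (B : Set H) := mem_centralizer_iff.2 fun b hb =>
    el_comm hel (mem_sup_left hb) (mem_sup_right ha)
  set y := a * (d * a * d⁻¹)
  have hyC : y ∈ centralizer (B : Set H) := mul_mem haC (mul_mem (mul_mem hd haC) (inv_mem hd))
  set u := y ^ (orderOf y / r)
  have hu : orderOf u = r := orderOf_pow_orderOf_div (orderOf_pos y).ne' hrd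
  have huC : u ∈ centralizer (B : Set H) := pow_mem hyC _
  set W := fixedSub φ (B : Set H) with hW
  set ψ : MulAut W := resHom φ B ⟨u, huC⟩
  have hψr : ψ ^ r = 1 := by
    show resHom φ B ⟨u, huC⟩ ^ r = 1
    rw [← map_pow, show (⟨u, huC⟩ : centralizer (B : Set H)) ^ r = 1 from
      Subtype.ext (by rw [SubmonoidClass.coe_pow]; show u ^ r = 1; rw [← hu, pow_orderOf_eq_one]), map_one]
  have huo : Odd (orderOf u) := hu.symm ▸ hr.odd_of_ne_two hr2
  have hψ1 : ψ ≠ 1 := fun h => by
    have hu1 := hf u huo (ab_lemma hV (fun b hb => hel b (mem_sup_left hb)) huo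
      (fun b hb => mem_centralizer_iff.1 huC b hb)
      (fun v hv => by
        have h' := congrArg Subtype.val (DFunLike.congr_fun h (⟨v, hv⟩ : W))
        exact h'))
    rw [hu1, orderOf_one] at hu
    exact hr.ne_one hu.symm
  have hWp : IsPGroup 2 W := fun v => ⟨1, by rw [pow_one, sq]; exact Subtype.ext (hV v)⟩
  have hcop : (Nat.card W).Coprime r := by
    obtain ⟨i, hi⟩ := hWp.exists_card_eq
    rw [hi]
    exact ((Nat.coprime_primes Nat.prime_two hr).2 (Ne.symm hr2)).pow_left i
  set U : Subgroup W := (fixedSub φ ({u} : Set H)).subgroupOf W with hU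
  have hUmem : ∀ v : W, v ∈ U ↔ (ψ ^ r ^ 0) v = v := fun v => by
    rw [pow_zero, pow_one, hU, mem_subgroupOf]
    exact ⟨fun h => Subtype.ext (h u rfl), fun h s hs => by
      rw [Set.mem_singleton_iff] at hs; subst hs; exact congrArg Subtype.val h⟩
  have hdvd := H72.dvd_index_fixed_sub_one ψ hr (e := 0)
    (by rw [pow_one]; exact orderOf_eq_prime hψr hψ1) hcop U hUmem
  obtain ⟨k, hk⟩ := hWp.index U
  rw [hk, pow_one] at hdvd
  have hk0 : k ≠ 0 := by
    rintro rfl
    rw [pow_zero, index_eq_one] at hk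
    exact hψ1 (MulEquiv.ext fun v => by
      have h := (hUmem v).1 (hk ▸ mem_top v)
      rwa [pow_zero, pow_one] at h)
  have hkN : 2 ^ N ≤ U.index :=
    hk ▸ Nat.pow_le_pow_right two_pos (Nat.le_of_dvd (Nat.pos_of_ne_zero hk0) (hN k hdvd))
  set C := W ⊓ fixedSub φ ({a} : Set H) with hCdef
  set C' := C.map (φ d).toMonoidHom with hC'
  have hWmap : W.map (φ d).toMonoidHom = W := by
    refine le_antisymm ?_ fun v hv => ?_
    · rintro _ ⟨v, hv, rfl⟩
      exact fixedSub_mem_of_commute (fun b hb => mem_centralizer_iff.1 hd b hb) hv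
    · refine ⟨φ d⁻¹ v, fixedSub_mem_of_commute (fun b hb => mem_centralizer_iff.1 (inv_mem hd) b hb) hv, ?_⟩
      show φ d (φ d⁻¹ v) = v
      rw [← MulAut.mul_apply, ← map_mul, mul_inv_cancel, map_one, MulAut.one_apply]
  have hC'rel : C'.relIndex W = C.relIndex W := by
    conv_lhs => rw [← hWmap]
    exact relIndex_map_map_of_injective _ _ (φ d).injective
  have hle : C ⊓ C' ≤ fixedSub φ ({u} : Set H) := by
    rintro v ⟨⟨-, h1⟩, w, ⟨-, h2⟩, rfl⟩ s hs
    rw [Set.mem_singleton_iff] at hs; subst hs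
    have hy : φ y (φ d w) = φ d w := by
      have e1 : φ (d * a * d⁻¹) (φ d w) = φ d w := by
        rw [← MulAut.mul_apply, ← map_mul, inv_mul_cancel_right, map_mul, MulAut.mul_apply, h2 a rfl]
      show φ (a * (d * a * d⁻¹)) (φ d w) = φ d w
      rw [map_mul, MulAut.mul_apply, e1]
      exact h1 a rfl
    have hn : ∀ n : ℕ, φ (y ^ n) (φ d w) = φ d w := by
      intro n
      induction n with
      | zero => simp
      | succ n ih => rw [pow_succ, map_mul, MulAut.mul_apply, hy, ih]
    exact hn _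
  refine index_fixedSub_le ?_
  rw [← hW]
  have h1 : U.index ≤ C.relIndex W ^ 2 := by
    show (fixedSub φ ({u} : Set H)).relIndex W ≤ _
    refine le_trans (Nat.le_of_dvd (Nat.pos_of_ne_zero index_ne_zero_of_finite)
      (relIndex_dvd_of_le_left W hle)) ?_
    refine relIndex_inf_le.trans ?_
    rw [hC'rel, sq]
  have h2 : C.relIndex W ≤ (fixedSub φ ((B ⊔ A' : Subgroup H) : Set H)).relIndex W :=
    Nat.le_of_dvd (Nat.pos_of_ne_zero index_ne_zero_of_finite) (relIndex_dvd_of_le_left W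
      (fun v hv => ⟨fun s hs => hv s (mem_sup_left hs), fun s hs => by
        rw [Set.mem_singleton_iff] at hs; subst hs; exact hv _ (mem_sup_right ha)⟩))
  refine le_trans ?_ h2
  refine (Nat.pow_le_pow_iff_left two_ne_zero).1 ?_
  calc (Nat.card A' ^ 2) ^ 2 = Nat.card A' ^ 4 := by rw [← pow_mul]
    _ ≤ 2 ^ N := hA'
    _ ≤ _ := hkN.trans h1

end Cfsg.Agent.H34.Suz
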