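import Cfsg.Agent.H34.SuzOffender.Simple
import Cfsg.Agent.H34.SuzOffender.Bound
import Cfsg.Agent.H52.LocalBalance
import Cfsg.Agent.H51.Component
import Cfsg.Agent.H83.Involves
import Mathlib

/-!
The step of the offender bound given by one component and its orbit under the acting 2-group.
-/

set_option autoImplicit false
set_option linter.style.haveILetI false
open scoped commutatorElement

namespace Cfsg.Agent.H34.Suz

open Subgroup
open Cfsg.Agent.H83 (fixedSub)

variable {H : Type*} [Group H]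

theorem conj_eq {a : H} (ha : a * a = 1) (x : H) : MulAut.conj a x = a * x * a := by
  rw [MulAut.conj_apply, inv_eq_of_mul_eq_one_right ha]

/-- A prime at least five divides the order of a non-solvable group. -/
theorem exists_prime_ge_five {X : Type*} [Group X] [Finite X] (hns : ¬ Group.IsSolvable X) :
    ∃ r, r.Prime ∧ 5 ≤ r ∧ r ∣ Nat.card X := by
  by_contra h
  push Not at h
  refine hns (H87.isSolvable_of_card_primeFactors_le_two ?_)
  refine le_trans (Finset.card_le_card (t := {2, 3}) fun p hp => ?_) Finset.card_le_two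
  obtain ⟨hp, hd, -⟩ := Nat.mem_primeFactors.1 hp
  have := h p hp
  have h5 : p < 5 := not_le.1 fun h5 => this h5 hd
  have := hp.two_le
  interval_cases p <;> first | (simp; done) | (norm_num at hp)

/-- Distinct commuting conjugates of a component give a diagonal copy. -/
theorem exists_diagonal [Finite H] {K A0 A1 : Subgroup H} (hK : Cfsg.IsComponent K)
    (hel : ∀ a ∈ A0 ⊔ A1, a * a = 1) (hA0 : A0 ≤ normalizer (K : Set H))
    (hA1 : ∀ a ∈ A1, a ∈ normalizer (K : Set H) → a = 1) :
    ∃ δ : ↥K →* H, (∀ k, δ k ∈ ⨆ t : A1, K.map (MulAut.conj (t : H)).toMonoidHom) ∧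
      (∀ t ∈ A1, ∀ k, t * δ k = δ k * t) ∧
      (∀ c, ∀ hc : c ∈ A0, ∀ k : K, δ ⟨c * k * c⁻¹, (mem_normalizer_iff.1 (hA0 hc) k).1 k.2⟩ = c * δ k * c⁻¹) ∧
      ∀ k : K, (k : H)⁻¹ * δ k ∈ centralizer (K : Set H) := by
  let S : Subgroup H → Subgroup H := fun T => ⨆ t : T, K.map (MulAut.conj (t : H)).toMonoidHom
  let P : Subgroup H → Prop := fun T => T ≤ A1 ∧ ∃ δ : ↥K →* H, (∀ k, δ k ∈ S T) ∧
    (∀ t ∈ T, ∀ k, t * δ k = δ k * t) ∧
    (∀ c, ∀ hc : c ∈ A0, ∀ k : K, δ ⟨c * k * c⁻¹, (mem_normalizer_iff.1 (hA0 hc) k).1 k.2⟩ = c * δ k * c⁻¹) ∧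
    ∀ k : K, (k : H)⁻¹ * δ k ∈ centralizer (K : Set H)
  have hP0 : P ⊥ := by
    refine ⟨bot_le, K.subtype, fun k => mem_iSup_of_mem ⟨1, one_mem _⟩ ⟨k, k.2, ?_⟩, ?_, ?_, ?_⟩
    · show MulAut.conj (1 : H) (k : H) = k
      rw [map_one, MulAut.one_apply]
    · intro t ht k; rw [mem_bot] at ht; subst ht; simp
    · intro c hc k; rfl
    · intro k; simp [one_mem]
  obtain ⟨T, -, hT⟩ := Finite.exists_le_maximal (p := P) hP0
  obtain ⟨hTA, δ, hS, hcomm, heq, hker⟩ := hT.prop
  suffices hTeq : A1 ≤ T by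
    obtain rfl : T = A1 := le_antisymm hTA hTeq
    exact ⟨δ, hS, hcomm, heq, hker⟩
  intro a ha
  by_contra haT
  have haa : a * a = 1 := hel a (mem_sup_right ha)
  have hai : a⁻¹ = a := inv_eq_of_mul_eq_one_right haa
  -- the two halves centralise each other
  let S' : Subgroup H := ⨆ t : T, K.map (MulAut.conj (a * (t : H))).toMonoidHom
  have hSS' : S T ≤ centralizer (S' : Set H) := by
    refine iSup_le fun t => ?_
    rw [le_centralizer_iff]
    refine iSup_le fun t' => ?_
    rw [le_centralizer_iff, ← commutator_eq_bot_iff_le_centralizer]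
    refine (H51.component_eq_or_commute (H51.component_map_conj hK _) (H51.component_map_conj hK _)).resolve_left ?_
    intro he
    have hn : ((t : H)⁻¹ * (a * t')) ∈ normalizer (K : Set H) := by
      have e := congrArg (fun L : Subgroup H => L.map (MulAut.conj (t : H)⁻¹).toMonoidHom) he
      simp only [Subgroup.map_map] at e
      have hcomp : ∀ x y : H, (MulAut.conj x).toMonoidHom.comp (MulAut.conj y).toMonoidHom =
          (MulAut.conj (x * y)).toMonoidHom := fun x y => by ext z; simp [mul_assoc]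
      rw [hcomp, hcomp, inv_mul_cancel, map_one] at e
      rw [mem_normalizer_iff]
      intro z
      have e' : z ∈ K ↔ ((t : H)⁻¹ * (a * t')) * z * ((t : H)⁻¹ * (a * t'))⁻¹ ∈
          K.map (MulAut.conj ((t : H)⁻¹ * (a * t'))).toMonoidHom := by
        constructor
        · exact fun hz => ⟨z, hz, rfl⟩
        · rintro ⟨w, hw, hwz⟩
          have : w = z := (MulAut.conj ((t : H)⁻¹ * (a * t'))).injective hwz
          exact this ▸ hw
      rw [e', ← e]
      constructor
      · rintro ⟨w, hw, hwz⟩; rw [← hwz]; exact hw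
      · exact fun hz => ⟨_, hz, rfl⟩
    have h1 := hA1 _ (mul_mem (inv_mem (hTA t.2)) (mul_mem ha (hTA t'.2))) hn
    rw [inv_mul_eq_one] at h1
    refine haT ?_
    have : a = (t : H) * (t' : H)⁻¹ := by rw [eq_mul_inv_iff_mul_eq, h1]
    rw [this]; exact mul_mem t.2 (inv_mem t'.2)
  have hmov : ∀ x ∈ S T, a * x * a⁻¹ ∈ S' := by
    intro x hx
    have : S T ≤ S'.comap (MulAut.conj a).toMonoidHom := by
      refine iSup_le fun t => ?_
      rintro _ ⟨k, hk, rfl⟩
      exact mem_iSup_of_mem t ⟨k, hk, by simp [mul_assoc]⟩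
    exact this hx
  have hK_S : K ≤ S T := fun k hk =>
    mem_iSup_of_mem ⟨1, one_mem _⟩ ⟨k, hk, by simp⟩
  have hcc : ∀ k k', δ k * (a * δ k' * a⁻¹) = (a * δ k' * a⁻¹) * δ k := fun k k' =>
    (mem_centralizer_iff.1 (hSS' (hS k)) _ (hmov _ (hS k'))).symm
  let δ' : ↥K →* H := MonoidHom.mk' (fun k => δ k * (a * δ k * a⁻¹)) fun k k' => by
    show δ (k * k') * (a * δ (k * k') * a⁻¹) = δ k * (a * δ k * a⁻¹) * (δ k' * (a * δ k' * a⁻¹))
    rw [map_mul, show δ k * δ k' * (a * (δ k * δ k') * a⁻¹) =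
      δ k * (δ k' * (a * δ k * a⁻¹)) * (a * δ k' * a⁻¹) by group, hcc k' k]
    group
  have hT' : T ⊔ zpowers a ≤ A1 := sup_le hTA (zpowers_le.2 ha)
  have hP' : P (T ⊔ zpowers a) := by
    refine ⟨hT', δ', fun k => mul_mem ?_ ?_, ?_, ?_, ?_⟩
    · exact (iSup_le fun t => le_iSup_of_le (⟨t, mem_sup_left t.2⟩ : ↥(T ⊔ zpowers a)) le_rfl : S T ≤ S _) (hS k)
    · exact (iSup_le fun t => le_iSup_of_le
        (⟨a * t, mul_mem (mem_sup_right (mem_zpowers a)) (mem_sup_left t.2)⟩ : ↥(T ⊔ zpowers a)) le_rfl :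
        S' ≤ S _) (hmov _ (hS k))
    · intro t ht k
      have hle : T ⊔ zpowers a ≤ centralizer ({δ' k} : Set H) := by
        refine sup_le (fun s hs => mem_centralizer_singleton_iff.2 ?_)
          (zpowers_le.2 (mem_centralizer_singleton_iff.2 ?_))
        · have hsa : s * a = a * s := el_comm hel (mem_sup_right (hTA hs)) (mem_sup_right ha)
          show s * (δ k * (a * δ k * a⁻¹)) = δ k * (a * δ k * a⁻¹) * s
          calc s * (δ k * (a * δ k * a⁻¹)) = (s * δ k) * (a * δ k * a⁻¹) := by group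
            _ = δ k * ((s * a) * δ k * a⁻¹) := by rw [hcomm s hs k]; group
            _ = δ k * (a * (s * δ k) * a⁻¹) := by rw [hsa]; group
            _ = δ k * (a * δ k * (s * a⁻¹)) := by rw [hcomm s hs k]; group
            _ = δ k * (a * δ k * (a⁻¹ * s)) := by rw [hai, hsa]
            _ = _ := by group
        · show a * (δ k * (a * δ k * a⁻¹)) = δ k * (a * δ k * a⁻¹) * a
          calc a * (δ k * (a * δ k * a⁻¹)) = (a * δ k * a⁻¹) * ((a * a) * δ k * a⁻¹) := by group
            _ = (a * δ k * a⁻¹) * δ k * a := by rw [haa, hai]; group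
            _ = _ := by rw [hcc k k]
      exact mem_centralizer_singleton_iff.1 (hle ht)
    · intro c hc k
      have hca : c * a = a * c := el_comm hel (mem_sup_left hc) (mem_sup_right ha)
      have hci : c⁻¹ = c := inv_eq_of_mul_eq_one_right (hel c (mem_sup_left hc))
      show δ _ * (a * δ _ * a⁻¹) = c * (δ k * (a * δ k * a⁻¹)) * c⁻¹
      rw [heq c hc k]
      calc c * δ k * c⁻¹ * (a * (c * δ k * c⁻¹) * a⁻¹)
          = c * δ k * c⁻¹ * ((a * c) * δ k * (a * c)⁻¹) := by group
        _ = c * δ k * c⁻¹ * ((c * a) * δ k * (c * a)⁻¹) := by rw [hca]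
        _ = _ := by group
    · intro k
      show (k : H)⁻¹ * (δ k * (a * δ k * a⁻¹)) ∈ _
      rw [← mul_assoc]
      exact mul_mem (hker k) (centralizer_le hK_S (le_centralizer_iff.1 hSS' (hmov _ (hS k))))
  exact haT (hT.le_of_ge hP' le_sup_left (mem_sup_right (mem_zpowers a)))

/-- The step given by the orbit of a component. -/
theorem component_step {V : Type*} [CommGroup V] [Finite H] [Finite V] {φ : H →* MulAut V}
    (hV : ∀ v : V, v * v = 1) (hf : ∀ x : H, Odd (orderOf x) → φ x = 1 → x = 1)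
    (h3 : ¬ Cfsg.Involves (Equiv.Perm (Fin 3)) H) {K : Subgroup H} (hK : Cfsg.IsComponent K)
    (hfacts : SimpleFacts (↥K ⧸ center ↥K)) {B A' : Subgroup H} (hel : ∀ a ∈ B ⊔ A', a * a = 1)
    (hKB : B ≤ centralizer (K : Set H)) (hC : ∀ a ∈ A', a ∈ centralizer (K : Set H) → a = 1) :
    Nat.card A' ^ 2 * (fixedSub φ (B : Set H)).index ≤
      (fixedSub φ ((B ⊔ A' : Subgroup H) : Set H)).index := by
  classical
  haveI := hK.2.1
  have hinv3 : ∀ x a : H, a * a = 1 → x ^ 3 = 1 → a * x * a = x⁻¹ → x = 1 := fun x a ha hx hax => by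
    by_contra hx1
    exact h3 (H83.involves_s3_of_inverted hx hx1 (by rwa [inv_eq_of_mul_eq_one_right ha]))
  set A0 := A' ⊓ normalizer (K : Set H) with hA0def
  obtain ⟨A1, hA1le, hsup, hinf, hcard⟩ :=
    exists_compl (fun a ha => hel a (mem_sup_right ha)) (inf_le_left : A0 ≤ A')
  have hA1 : ∀ a ∈ A1, a ∈ normalizer (K : Set H) → a = 1 := fun a ha hn =>
    mem_bot.1 (hinf.le ⟨⟨hA1le ha, hn⟩, ha⟩)
  have hns : ¬ Group.IsSolvable (↥K ⧸ center ↥K) := by
    intro h
    haveI := hK.2.2
    have hc := IsSimpleGroup.comm_iff_isSolvable.2 h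
    refine Subgroup.Normal.quotient_commutative_iff_commutator_le.1 ⟨⟨hc⟩⟩ |> fun hle => ?_
    rw [Group.IsPerfect.commutator_eq_top, top_le_iff, center_eq_top_iff] at hle
    exact H51.quasisimple_not_isMulCommutative hK.2 hle
  have hmapK : ∀ g : H, B ≤ centralizer ({g} : Set H) →
      B ≤ centralizer ((K.map (MulAut.conj g).toMonoidHom : Subgroup H) : Set H) := by
    intro g hg b hb
    rw [mem_centralizer_iff]
    rintro _ ⟨k, hk, rfl⟩
    have h1 := mem_centralizer_singleton_iff.1 (hg hb)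
    have h2 := mem_centralizer_iff.1 (hKB hb) k hk
    show g * k * g⁻¹ * b = b * (g * k * g⁻¹)
    have h1' : g⁻¹ * b = b * g⁻¹ := by
      rw [inv_mul_eq_iff_eq_mul, ← mul_assoc, ← h1, mul_inv_cancel_right]
    calc g * k * g⁻¹ * b = g * k * (g⁻¹ * b) := mul_assoc _ _ _
      _ = g * (k * b) * g⁻¹ := by rw [h1']; group
      _ = g * (b * k) * g⁻¹ := by rw [h2]
      _ = (g * b) * k * g⁻¹ := by group
      _ = _ := by rw [← h1]; group
  -- first stage: `A1`
  have hel1 : ∀ a ∈ B ⊔ A1, a * a = 1 := fun a ha => hel a (sup_le_sup_left hA1le B ha)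
  have stage1 : Nat.card A1 ^ 2 * (fixedSub φ (B : Set H)).index ≤
      (fixedSub φ ((B ⊔ A1 : Subgroup H) : Set H)).index := by
    obtain ⟨r, hr, hr5, hrd⟩ := exists_prime_ge_five hns
    haveI : Fact r.Prime := ⟨hr⟩
    obtain ⟨xb, hxb⟩ := exists_prime_orderOf_dvd_card' r hrd
    obtain ⟨x₀, rfl⟩ := QuotientGroup.mk_surjective xb
    obtain ⟨e, l, hl, he⟩ := Nat.exists_eq_pow_mul_and_not_dvd (orderOf_pos x₀).ne' r hr.ne_one
    set x := x₀ ^ l
    have hxr : x ^ r ^ e = 1 := by rw [← pow_mul, mul_comm, ← he, pow_orderOf_eq_one]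
    have hxZ : x ∉ center ↥K := by
      intro h
      have h1 : (x₀ : ↥K ⧸ center ↥K) ^ l = 1 := by
        rw [← QuotientGroup.mk_pow, QuotientGroup.eq_one_iff]; exact h
      exact hl (hxb ▸ orderOf_dvd_of_pow_eq_one h1)
    set Y : Set H := Set.range fun t : A1 => (t : H) * (x : H) * (t : H)⁻¹ with hY
    set X := closure Y with hX
    have hYmem : ∀ t : A1, (t : H) * (x : H) * (t : H)⁻¹ ∈ K.map (MulAut.conj (t : H)).toMonoidHom :=
      fun t => ⟨x, x.2, rfl⟩
    have hYcomm : ∀ p ∈ Y, ∀ q ∈ Y, p * q = q * p := by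
      rintro _ ⟨t, rfl⟩ _ ⟨t', rfl⟩
      by_cases htt : t = t'
      · rw [htt]
      have hne : K.map (MulAut.conj (t : H)).toMonoidHom ≠ K.map (MulAut.conj (t' : H)).toMonoidHom := by
        intro he'
        refine htt ?_
        have hn : (t' : H)⁻¹ * t ∈ normalizer (K : Set H) := by
          rw [mem_normalizer_iff]
          intro z
          have h1 : z ∈ K ↔ (t : H) * z * (t : H)⁻¹ ∈ K.map (MulAut.conj (t : H)).toMonoidHom :=
            ⟨fun hz => ⟨z, hz, rfl⟩, fun ⟨w, hw, hwz⟩ => (MulAut.conj (t : H)).injective hwz ▸ hw⟩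
          rw [h1, he']
          constructor
          · rintro ⟨w, hw, hwz⟩
            have e : w = (t' : H)⁻¹ * t * z * ((t' : H)⁻¹ * t)⁻¹ := by
              apply (MulAut.conj (t' : H)).injective
              rw [show MulAut.conj (t' : H) w = (t : H) * z * (t : H)⁻¹ from hwz]
              simp [mul_assoc]
            exact e ▸ hw
          · intro hz; exact ⟨_, hz, by simp [mul_assoc]⟩
        exact Subtype.ext (inv_mul_eq_one.1 (hA1 _ (mul_mem (inv_mem t'.2) t.2) hn)).symm
      have hcomm := (H51.component_eq_or_commute (H51.component_map_conj hK (t : H))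
        (H51.component_map_conj hK (t' : H))).resolve_left hne
      exact (mem_centralizer_iff.1 (commutator_eq_bot_iff_le_centralizer.1 hcomm (hYmem t)) _ (hYmem t')).symm
    have hXc : ∀ p ∈ X, ∀ q ∈ X, p * q = q * p := fun p hp q hq => by
      haveI : IsMulCommutative X := isMulCommutative_closure hYcomm
      exact congrArg Subtype.val (IsMulCommutative.is_comm.comm (⟨p, hp⟩ : X) ⟨q, hq⟩)
    have hXr : ∀ p ∈ X, p ^ r ^ e = 1 := by
      intro p hp
      induction hp using closure_induction with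
      | mem q hq =>
        obtain ⟨t, rfl⟩ := hq
        rw [conj_pow]
        have := congrArg Subtype.val hxr
        rw [SubmonoidClass.coe_pow, OneMemClass.coe_one] at this
        rw [this]; group
      | one => exact one_pow _
      | mul u v hu hv hu' hv' => rw [Commute.mul_pow (hXc u hu v hv), hu', hv', one_mul]
      | inv u _ hu' => rw [inv_pow, hu', inv_one]
    have hXp : IsPGroup r X := fun p => ⟨e, Subtype.ext (by rw [SubmonoidClass.coe_pow]; exact hXr p p.2)⟩
    refine step_odd (X := X) hV hf hel1 ?_ ?_ ?_ ?_ ?_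
    · obtain ⟨i, hi⟩ := hXp.exists_card_eq
      rw [hi]; exact (hr.odd_of_ne_two (by omega)).pow
    · rw [le_centralizer_iff, hX, centralizer_closure]
      intro b hb
      rw [mem_centralizer_iff]
      rintro _ ⟨t, rfl⟩
      exact mem_centralizer_iff.1 (hmapK (t : H) (fun b' hb' => mem_centralizer_singleton_iff.2
        (el_comm hel1 (mem_sup_left hb') (mem_sup_right t.2))) hb) _ (hYmem t)
    · intro a ha
      have hle : ∀ g ∈ A1, ∀ p ∈ X, g * p * g⁻¹ ∈ X := by
        intro g hg p hp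
        have hsub : X ≤ X.comap (MulAut.conj g).toMonoidHom := by
          refine (closure_le _).2 ?_
          rintro _ ⟨t, rfl⟩
          show g * ((t : H) * (x : H) * (t : H)⁻¹) * g⁻¹ ∈ X
          exact subset_closure ⟨⟨g * t, mul_mem hg t.2⟩, by simp [mul_assoc]⟩
        exact hsub hp
      rw [mem_normalizer_iff]
      exact fun p => ⟨hle a ha p, fun h => by simpa [mul_assoc] using hle a⁻¹ (inv_mem ha) _ h⟩
    · intro a ha hc
      by_contra ha1
      have hne : K ≠ K.map (MulAut.conj a).toMonoidHom := fun he' => ha1 (hA1 a ha (by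
        rw [mem_normalizer_iff]
        intro z
        constructor
        · intro hz; rw [he']; exact ⟨z, hz, rfl⟩
        · intro hz
          rw [he'] at hz
          obtain ⟨w, hw, hwz⟩ := hz
          exact (MulAut.conj a).injective hwz ▸ hw))
      have hcomm := (H51.component_eq_or_commute hK (H51.component_map_conj hK a)).resolve_left hne
      have hxX : (x : H) ∈ X := subset_closure ⟨⟨1, one_mem _⟩, by simp⟩
      have hxa : (x : H) ∈ K.map (MulAut.conj a).toMonoidHom := ⟨x, x.2, by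
        show a * (x : H) * a⁻¹ = x
        rw [hc _ hxX, mul_inv_cancel_right]⟩
      refine hxZ (mem_center_iff.2 fun k => Subtype.ext ?_)
      exact (mem_centralizer_iff.1 (commutator_eq_bot_iff_le_centralizer.1 hcomm k.2) _ hxa).symm
    · intro p hp a ha hp3 _
      have h1 : orderOf p ∣ 3 := orderOf_dvd_of_pow_eq_one hp3
      have h2 : orderOf p ∣ r ^ e := orderOf_dvd_of_pow_eq_one (hXr p hp)
      have h4 : Nat.gcd 3 (r ^ e) = 1 :=
        ((Nat.coprime_primes Nat.prime_three hr).2 (by omega)).pow_right e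
      have h5 := Nat.dvd_gcd h1 h2
      rw [h4, Nat.dvd_one, orderOf_eq_one_iff] at h5
      exact h5
  -- second stage: `A0`
  have hsup' : B ⊔ A' = (B ⊔ A1) ⊔ A0 := by rw [← hsup, sup_comm A0 A1, sup_assoc]
  have hel01 : ∀ a ∈ A0 ⊔ A1, a * a = 1 := fun a ha => hel a (mem_sup_right (hsup ▸ ha))
  obtain ⟨δ, hδS, hδA1, hδA0, hδker⟩ := exists_diagonal hK hel01 inf_le_right hA1
  have stage2 : Nat.card A0 ^ 2 * (fixedSub φ ((B ⊔ A1 : Subgroup H) : Set H)).index ≤
      (fixedSub φ ((B ⊔ A' : Subgroup H) : Set H)).index := by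
    by_cases hA0b : A0 = ⊥
    · rw [hsup', hA0b, card_bot, one_pow, one_mul, sup_bot_eq]
    obtain ⟨N, hpair, hsmall, houter⟩ := hfacts
    -- the automorphisms induced by `A0`
    let θ : ↥A0 →* MulAut (↥K ⧸ center ↥K) := (H52.normAct K).comp (inclusion (inf_le_right))
    have hθ : Function.Injective θ := by
      rw [injective_iff_map_eq_one]
      exact fun c hc => Subtype.ext (hC c c.2.1 ((H52.normAct_eq_one_iff K _).1 hc))
    have hθ2 : ∀ c, θ c * θ c = 1 := fun c => by
      rw [← map_mul, show c * c = 1 from Subtype.ext (hel c (mem_sup_right c.2.1)), map_one]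
    have hinner : ∀ c, ∃ g, θ c = MulAut.conj g := by
      intro c
      by_contra hno
      push Not at hno
      obtain ⟨xb, hx3, hx1, hax⟩ := houter (θ c) (hθ2 c) hno
      obtain ⟨x, rfl⟩ := QuotientGroup.mk_surjective xb
      set a : H := (c : H)
      have haa : a * a = 1 := hel a (mem_sup_right c.2.1)
      have hai : a⁻¹ = a := inv_eq_of_mul_eq_one_right haa
      have hcx : a * (x : H) * a⁻¹ ∈ K := (mem_normalizer_iff.1 c.2.2 x).1 x.2
      set y : ↥K := x⁻¹ * ⟨_, hcx⟩ with hy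
      have hyb : (y : ↥K ⧸ center ↥K) = (x : ↥K ⧸ center ↥K) := by
        rw [hy, QuotientGroup.mk_mul, QuotientGroup.mk_inv, show ((⟨_, hcx⟩ : ↥K) : ↥K ⧸ center ↥K) =
          θ c (x : ↥K ⧸ center ↥K) from (H52.normAct_apply K (inclusion inf_le_right c) x).symm, hax, ← mul_inv_rev,
          inv_eq_iff_mul_eq_one, ← hx3, pow_succ, pow_two]
      have hay : a * (y : H) * a = (y : H)⁻¹ := by
        rw [hy]
        simp only [Subgroup.coe_mul, Subgroup.coe_inv]
        calc a * ((x : H)⁻¹ * (a * (x : H) * a⁻¹)) * a = (a * (x : H)⁻¹ * a) * (x : H) := by group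
          _ = ((x : H)⁻¹ * (a * (x : H) * a⁻¹))⁻¹ := by rw [hai]; rw [mul_inv_rev, mul_inv_rev, mul_inv_rev, hai]; group
      have h3o : 3 ∣ orderOf (y : H) := by
        rw [orderOf_coe]
        refine dvd_trans ?_ (orderOf_map_dvd (QuotientGroup.mk' (center ↥K)) y)
        rw [QuotientGroup.mk'_apply, hyb, orderOf_eq_prime hx3 hx1]
      set z := (y : H) ^ (orderOf (y : H) / 3)
      have hz : orderOf z = 3 := orderOf_pow_orderOf_div (orderOf_pos _).ne' h3o
      have hz1 := hinv3 z a haa (by rw [← hz]; exact pow_orderOf_eq_one z) (by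
        show a * (y : H) ^ (orderOf (y : H) / 3) * a = _
        conv_lhs => rw [show a * (y : H) ^ (orderOf (y : H) / 3) * a =
          a * (y : H) ^ (orderOf (y : H) / 3) * a⁻¹ by rw [hai], ← conj_pow, hai, hay, inv_pow])
      rw [hz1, orderOf_one] at hz
      norm_num at hz
    choose g hg using hinner
    haveI := hK.2.2
    have hcent : ∀ u : ↥K ⧸ center ↥K, MulAut.conj u = 1 → u = 1 := by
      intro u hu
      have hbot : center (↥K ⧸ center ↥K) = ⊥ :=
        H51.center_eq_bot_of_isSimpleGroup fun h => hns (Group.isSolvable_of_comm fun a b => h.is_comm.comm a b)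
      have hm : u ∈ center (↥K ⧸ center ↥K) := mem_center_iff.2 fun w => by
        have := DFunLike.congr_fun hu w
        rw [MulAut.conj_apply, MulAut.one_apply, mul_inv_eq_iff_eq_mul] at this
        exact this.symm
      rwa [hbot, mem_bot] at hm
    have hgsq : ∀ c, g c * g c = 1 := fun c => hcent _ (by rw [map_mul, ← hg, hθ2])
    have hg1 : ∀ c, g c = 1 → c = 1 := fun c h => hθ (by rw [hg, h, map_one, map_one])
    let Bb : Subgroup (↥K ⧸ center ↥K) := θ.range.comap MulAut.conj
    have hBb : ∀ u ∈ Bb, u * u = 1 := by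
      rintro u ⟨c, hc⟩
      exact hcent _ (by rw [map_mul, ← hc, hθ2])
    have hcardA0 : Nat.card A0 ≤ Nat.card Bb :=
      Nat.card_le_card_of_injective (fun c => (⟨g c, c, hg c⟩ : Bb)) fun c c' h =>
        hθ (by rw [hg, hg, show g c = g c' from congrArg Subtype.val h])
    obtain ⟨c, hc0, hc1⟩ := (A0.bot_or_exists_ne_one).resolve_left hA0b
    set cc : ↥A0 := ⟨c, hc0⟩
    obtain ⟨kb, r, hr, hr2, hord, hN⟩ := hpair (g cc) (hgsq cc)
      (fun h => hc1 (congrArg Subtype.val (hg1 cc h)))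
    obtain ⟨k, rfl⟩ := QuotientGroup.mk_surjective kb
    have hcc2 : c * c = 1 := hel c (mem_sup_right hc0.1)
    have hci : c⁻¹ = c := inv_eq_of_mul_eq_one_right hcc2
    have hSle : (⨆ t : A1, K.map (MulAut.conj (t : H)).toMonoidHom) ≤ centralizer (B : Set H) := by
      refine iSup_le fun t => ?_
      rw [le_centralizer_iff]
      exact hmapK (t : H) fun b hb => mem_centralizer_singleton_iff.2
        (el_comm hel1 (mem_sup_left hb) (mem_sup_right t.2))
    have hd : δ k ∈ centralizer ((B ⊔ A1 : Subgroup H) : Set H) := by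
      rw [mem_centralizer_iff]
      intro s hs
      have hle : B ⊔ A1 ≤ centralizer ({δ k} : Set H) := sup_le
        (fun b hb => mem_centralizer_singleton_iff.2 (mem_centralizer_iff.1 (hSle (hδS k)) b hb))
        (fun t ht => mem_centralizer_singleton_iff.2 (hδA1 t ht k))
      exact mem_centralizer_singleton_iff.1 (hle hs)
    have hckc : c * (k : H) * c⁻¹ ∈ K := (mem_normalizer_iff.1 hc0.2 k).1 k.2
    set w : ↥K := ⟨_, hckc⟩ * k⁻¹
    have hy : c * (δ k * c * (δ k)⁻¹) = δ w := by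
      show _ = δ (⟨_, hckc⟩ * k⁻¹)
      rw [map_mul, map_inv, hδA0 c hc0 k]
      conv_rhs => rw [hci]
      group
    rw [hsup']
    refine step_pair hV hf (hsup' ▸ hel) hc0 hd hr hr2 ?_ hN
      ((Nat.pow_le_pow_left hcardA0 4).trans (hsmall Bb hBb))
    rw [hy]
    have hwb : (w : ↥K ⧸ center ↥K) =
        g cc * ((k : ↥K ⧸ center ↥K) * g cc * (k : ↥K ⧸ center ↥K)⁻¹) := by
      have e : ((⟨_, hckc⟩ : ↥K) : ↥K ⧸ center ↥K) = θ cc (k : ↥K ⧸ center ↥K) :=
        (H52.normAct_apply K (inclusion inf_le_right cc) k).symm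
      show ((⟨_, hckc⟩ * k⁻¹ : ↥K) : ↥K ⧸ center ↥K) = _
      rw [QuotientGroup.mk_mul, QuotientGroup.mk_inv, e, hg, MulAut.conj_apply,
        inv_eq_of_mul_eq_one_right (hgsq cc)]
      group
    rw [← hord, ← hwb]
    refine orderOf_dvd_of_pow_eq_one ?_
    rw [← QuotientGroup.mk_pow, QuotientGroup.eq_one_iff, mem_center_iff]
    intro u
    have h1 := hδker (w ^ orderOf (δ w))
    rw [map_pow, pow_orderOf_eq_one, mul_one] at h1
    have h2 := inv_mem h1
    rw [inv_inv] at h2
    exact Subtype.ext (mem_centralizer_iff.1 h2 u u.2)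
  calc Nat.card A' ^ 2 * (fixedSub φ (B : Set H)).index
      = Nat.card A0 ^ 2 * (Nat.card A1 ^ 2 * (fixedSub φ (B : Set H)).index) := by
        rw [hcard, mul_pow, mul_assoc]
    _ ≤ Nat.card A0 ^ 2 * (fixedSub φ ((B ⊔ A1 : Subgroup H) : Set H)).index :=
        Nat.mul_le_mul_left _ stage1
    _ ≤ _ := stage2

end Cfsg.Agent.H34.Suz
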