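import Cfsg.Agent.H34.SuzOffender.Component
import Cfsg.Agent.H83.SolvableBound
import Cfsg.Agent.H51.FStar
import Cfsg.Prelude.Def_Local
import Mathlib

/-!
In a group without `S₃` section, with `O₂ = 1` and non-abelian composition factors among `Sz(q)` and
`PSL₂(3^(2n+1))`, an elementary abelian 2-subgroup `A` has `|V : C_V(A)| ≥ |A|²` and
`|[V, A]| ≥ |A|²` on every faithful module of exponent 2.
-/

set_option autoImplicit false
set_option linter.style.haveILetI false

namespace Cfsg.Agent.H34.Suz

open Subgroup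
open Cfsg.Agent.H83 (fixedSub commSub delta delta_apply delta_mem_commSub)

variable {H : Type*} [Group H] [Finite H]

/-- The bound for the fixed points. -/
theorem fixed_bound {V : Type*} [CommGroup V] [Finite V] (φ : H →* MulAut V) (hφ : Function.Injective φ)
    (hV : ∀ v : V, v * v = 1) (hO : Cfsg.pCore 2 H = ⊥)
    (h3 : ¬ Cfsg.Involves (Equiv.Perm (Fin 3)) H)
    (hK : Cfsg.IsCompositionKGroupWith Cfsg.IsSuzukiOrPSL2OddPowerThree H)
    (A : Subgroup H) (hA : ∀ a ∈ A, a * a = 1) :
    Nat.card A ^ 2 ≤ (fixedSub φ (A : Set H)).index := by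
  have hf : ∀ x : H, Odd (orderOf x) → φ x = 1 → x = 1 := fun x _ h => hφ (h.trans (map_one φ).symm)
  have hbot : (fixedSub φ ((⊥ : Subgroup H) : Set H)).index = 1 := by
    rw [index_eq_one, eq_top_iff]
    intro v _ s hs
    rw [SetLike.mem_coe, mem_bot] at hs
    subst hs
    rw [map_one, MulAut.one_apply]
  have hodd := H83.fitting_odd hO
  haveI := H19.fitting_normal H
  set F := Cfsg.fittingSubgroup H
  -- subgroups centralising the Fitting subgroup
  have hstep : ∀ n, ∀ B ≤ A ⊓ centralizer (F : Set H), Nat.card B = n →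
      Nat.card B ^ 2 ≤ (fixedSub φ (B : Set H)).index := by
    intro n
    induction n using Nat.strong_induction_on with
    | _ n ih =>
      intro B hB hn
      by_cases hB1 : B = ⊥
      · rw [hB1, card_bot, one_pow, hbot]
      have hBel : ∀ b ∈ B, b * b = 1 := fun b hb => hA b (hB hb).1
      obtain ⟨K, hKc, hKB⟩ : ∃ K : Subgroup H, Cfsg.IsComponent K ∧ ¬ B ≤ centralizer (K : Set H) := by
        by_contra hno
        push Not at hno
        refine hB1 ((Subgroup.eq_bot_iff_forall _).2 fun b hb => ?_)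
        have hle : Cfsg.generalizedFittingSubgroup H ≤ centralizer ({b} : Set H) := by
          refine sup_le (sSup_le fun K hKc k hk => ?_) fun f hf' => ?_
          · exact mem_centralizer_singleton_iff.2 (mem_centralizer_iff.1 (hno K hKc hb) k hk)
          · exact mem_centralizer_singleton_iff.2 (mem_centralizer_iff.1 (hB hb).2 f hf')
        have hbF : b ∈ F := H51.centralizer_generalizedFitting_le_fitting H
          (mem_centralizer_iff.2 fun k hk => mem_centralizer_singleton_iff.1 (hle hk))
        have h1 := Subgroup.orderOf_dvd_natCard _ hbF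
        have h2 : orderOf b ∣ 2 := orderOf_dvd_of_pow_eq_one (by rw [sq, hBel b hb])
        have := Nat.dvd_gcd h2 h1
        rwa [(Nat.coprime_two_left.2 hodd).gcd_eq_one, Nat.dvd_one, orderOf_eq_one_iff] at this
      obtain ⟨A', hA'B, hsup, hinf, hcard⟩ :=
        exists_compl hBel (inf_le_left : B ⊓ centralizer (K : Set H) ≤ B)
      set B0 := B ⊓ centralizer (K : Set H)
      have hlt : Nat.card B0 < n := hn ▸ lt_of_not_ge fun h =>
        hKB ((Subgroup.eq_of_le_of_card_ge (inf_le_left : B0 ≤ B) h) ▸ (inf_le_right : B0 ≤ _))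
      have h1 := ih _ hlt B0 (inf_le_left.trans hB) rfl
      haveI := hKc.2.1
      haveI := hKc.2.2
      have hna : ¬ IsMulCommutative (↥K ⧸ center ↥K) := fun hc => by
        refine H51.quasisimple_not_isMulCommutative hKc.2 (center_eq_top_iff.1 (top_le_iff.1 ?_))
        rw [← Group.IsPerfect.commutator_eq_top (G := ↥K)]
        exact Subgroup.Normal.quotient_commutative_iff_commutator_le.1 hc
      have h2 := component_step (φ := φ) hV hf h3 hKc
        (simpleFacts hKc.2.2 hna (hK K hKc.1 (center ↥K) hKc.2.2 hna)) (B := B0) (A' := A')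
        (fun a ha => hBel a (hsup ▸ ha)) inf_le_right
        (fun a ha hc => mem_bot.1 (hinf.le ⟨⟨hA'B ha, hc⟩, ha⟩))
      rw [hsup] at h2
      calc Nat.card B ^ 2 = Nat.card A' ^ 2 * Nat.card B0 ^ 2 := by rw [hcard, mul_pow, mul_comm]
        _ ≤ Nat.card A' ^ 2 * (fixedSub φ (B0 : Set H)).index := Nat.mul_le_mul_left _ h1
        _ ≤ _ := h2
  obtain ⟨A', hA'A, hsup, hinf, hcard⟩ := exists_compl hA (inf_le_left : A ⊓ centralizer (F : Set H) ≤ A)
  set B := A ⊓ centralizer (F : Set H)
  have h1 := hstep _ B le_rfl rfl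
  have h2 := step_odd (φ := φ) hV hf (B := B) (A' := A') (X := F) (fun a ha => hA a (hsup ▸ ha)) hodd
    (le_centralizer_iff.1 inf_le_right) (le_top.trans_eq (normalizer_eq_top (H := F)).symm)
    (fun a ha hc => mem_bot.1 (hinf.le ⟨⟨hA'A ha, mem_centralizer_iff.2 fun f hf' => (hc f hf').symm⟩, ha⟩))
    (fun x _ a ha hx hax => H83.no_inverted_of_s3_free h3 hx (hA a (hA'A ha)) hax)
  rw [hsup] at h2
  calc Nat.card A ^ 2 = Nat.card A' ^ 2 * Nat.card B ^ 2 := by rw [hcard, mul_pow, mul_comm]
    _ ≤ Nat.card A' ^ 2 * (fixedSub φ (B : Set H)).index := Nat.mul_le_mul_left _ h1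
    _ ≤ _ := h2

section Dual

variable {V : Type*} [CommGroup V] [Finite V]

/-- The characters of `V`. -/
def Dual (V : Type*) [CommGroup V] : Type _ := V →* ℂˣ

noncomputable instance : CommGroup (Dual V) := inferInstanceAs (CommGroup (V →* ℂˣ))

instance : FunLike (Dual V) V ℂˣ := inferInstanceAs (FunLike (V →* ℂˣ) V ℂˣ)

instance : MonoidHomClass (Dual V) V ℂˣ := inferInstanceAs (MonoidHomClass (V →* ℂˣ) V ℂˣ)

theorem Dual.card : Nat.card (Dual V) = Nat.card V :=
  CommGroup.card_monoidHom_of_hasEnoughRootsOfUnity V ℂ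

instance : Finite (Dual V) := Nat.finite_of_card_ne_zero (by rw [Dual.card]; exact Nat.card_pos.ne')

theorem Dual.ext {f f' : Dual V} (h : ∀ v, f v = f' v) : f = f' := MonoidHom.ext h

/-- The action on the characters. -/
noncomputable def dualHom (φ : H →* MulAut V) : H →* MulAut (Dual V) :=
  MonoidHom.mk' (fun g =>
    { toFun := fun f => MonoidHom.comp f (φ g⁻¹).toMonoidHom
      invFun := fun f => MonoidHom.comp f (φ g).toMonoidHom
      left_inv := fun f => Dual.ext fun v => by
        show f (φ g⁻¹ (φ g v)) = f v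
        rw [← MulAut.mul_apply, ← map_mul, inv_mul_cancel, map_one, MulAut.one_apply]
      right_inv := fun f => Dual.ext fun v => by
        show f (φ g (φ g⁻¹ v)) = f v
        rw [← MulAut.mul_apply, ← map_mul, mul_inv_cancel, map_one, MulAut.one_apply]
      map_mul' := fun f f' => rfl }) fun g h => by
    apply MulEquiv.ext; intro f; apply Dual.ext; intro v
    show f (φ (g * h)⁻¹ v) = f (φ h⁻¹ (φ g⁻¹ v))
    rw [mul_inv_rev, map_mul, MulAut.mul_apply]

omit [Finite H] in
theorem dualHom_apply (φ : H →* MulAut V) (g : H) (f : Dual V) (v : V) : dualHom φ g f v = f (φ g⁻¹ v) := rfl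

omit [Finite H] in
theorem dualHom_injective {φ : H →* MulAut V} (hφ : Function.Injective φ) :
    Function.Injective (dualHom φ) := by
  rw [injective_iff_map_eq_one]
  intro g hg
  refine inv_eq_one.1 (hφ ((MulEquiv.ext fun v => ?_).trans (map_one φ).symm))
  by_contra hne
  obtain ⟨f, hf⟩ := CommGroup.exists_apply_ne_one_of_hasEnoughRootsOfUnity V ℂ
    (show φ g⁻¹ v / v ≠ 1 from fun h => hne (div_eq_one.1 h))
  refine hf ?_
  let f' : Dual V := f
  have h' : f' (φ g⁻¹ v) = f' v := by rw [← dualHom_apply, hg, MulAut.one_apply]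
  rw [map_div, div_eq_one]
  exact h'

omit [Finite H] in
theorem dual_fixed_index (φ : H →* MulAut V) (A : Subgroup H) :
    (fixedSub (dualHom φ) (A : Set H)).index = Nat.card (commSub φ (A : Set H)) := by
  set U := commSub φ (A : Set H)
  let res : Dual V →* Dual ↥U :=
    { toFun := fun f => MonoidHom.comp f U.subtype
      map_one' := rfl
      map_mul' := fun _ _ => rfl }
  have hres : Function.Surjective res := fun f => by
    obtain ⟨g, hg⟩ := MonoidHom.domRestrict_surjective ℂ U f
    exact ⟨g, hg⟩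
  have hker : res.ker = fixedSub (dualHom φ) (A : Set H) := by
    ext f
    constructor
    · intro hf a ha
      refine Dual.ext fun v => ?_
      rw [dualHom_apply]
      have h : f (delta φ a⁻¹ v) = 1 :=
        DFunLike.congr_fun (MonoidHom.mem_ker.1 hf : res f = 1)
          (⟨delta φ a⁻¹ v, delta_mem_commSub (inv_mem ha) v⟩ : U)
      rwa [delta_apply, map_div, div_eq_one] at h
    · intro hf
      refine MonoidHom.mem_ker.2 (Dual.ext fun ⟨u, hu⟩ => ?_)
      show f u = 1
      induction hu using closure_induction with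
      | mem x hx =>
        obtain ⟨a, ha, v, rfl⟩ := hx
        rw [delta_apply, map_div, div_eq_one]
        have h := dualHom_apply φ a⁻¹ f v
        rw [hf a⁻¹ (A.inv_mem ha), inv_inv] at h
        exact h.symm
      | one => exact map_one f
      | mul x y _ _ hx hy => rw [map_mul, hx, hy, one_mul]
      | inv x _ hx => rw [map_inv, hx, inv_one]
  rw [← hker, Subgroup.index_ker, MonoidHom.range_eq_top.2 hres, Subgroup.card_top, Dual.card]

/-- The bound for fixed points and commutators. -/
theorem offender_bound (φ : H →* MulAut V) (hφ : Function.Injective φ) (hV : ∀ v : V, v * v = 1)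
    (hO : Cfsg.pCore 2 H = ⊥) (h3 : ¬ Cfsg.Involves (Equiv.Perm (Fin 3)) H)
    (hK : Cfsg.IsCompositionKGroupWith Cfsg.IsSuzukiOrPSL2OddPowerThree H)
    (A : Subgroup H) (hA : ∀ a ∈ A, a * a = 1) :
    Nat.card A ^ 2 ≤ (fixedSub φ (A : Set H)).index ∧
      Nat.card A ^ 2 ≤ Nat.card (commSub φ (A : Set H)) := by
  refine ⟨fixed_bound φ hφ hV hO h3 hK A hA, ?_⟩
  rw [← dual_fixed_index]
  refine fixed_bound (dualHom φ) (dualHom_injective hφ) (fun f => Dual.ext fun v => ?_) hO h3 hK A hA
  show f v * f v = 1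
  rw [← map_mul, hV, map_one]

end Dual

end Cfsg.Agent.H34.Suz
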