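import Cfsg.Agent.H72.SzPair
import Cfsg.Agent.H72.ModuleBound
import Cfsg.Agent.H58.SuzukiOut
import Cfsg.Agent.H77.PSL2Aut
import Cfsg.Agent.H6.SylowTwo
import Cfsg.Agent.H87.FourOrbits
import Cfsg.Prelude.Def_LocalEven
import Mathlib

/-!
What the offender bound needs from the groups `Sz(q)` and `PSL₂(3^(2n+1))`: every involution and a
conjugate give an element of a prime order `r` with `2` of large order modulo `r`, elementary
abelian 2-subgroups are small, and an outer involutory automorphism inverts an element of order 3.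
-/

set_option autoImplicit false

namespace Cfsg.Agent.H34.Suz

/-- The facts used about a simple component. -/
def SimpleFacts (S : Type*) [Group S] : Prop :=
  ∃ N : ℕ,
    (∀ i : S, i * i = 1 → i ≠ 1 → ∃ (k : S) (r : ℕ), r.Prime ∧ r ≠ 2 ∧
      orderOf (i * (k * i * k⁻¹)) = r ∧ ∀ d, r ∣ 2 ^ d - 1 → N ∣ d) ∧
    (∀ B : Subgroup S, (∀ b ∈ B, b * b = 1) → Nat.card B ^ 4 ≤ 2 ^ N) ∧
    ∀ α : MulAut S, α * α = 1 → (∀ g, α ≠ MulAut.conj g) → ∃ x : S, x ^ 3 = 1 ∧ x ≠ 1 ∧ α x = x⁻¹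

theorem SimpleFacts.of_equiv {S T : Type*} [Group S] [Group T] (e : T ≃* S) (h : SimpleFacts S) :
    SimpleFacts T := by
  obtain ⟨N, h1, h2, h3⟩ := h
  refine ⟨N, ?_, ?_, ?_⟩
  · intro i hi hi1
    obtain ⟨k, r, hr, hr2, ho, hd⟩ := h1 (e i) (by rw [← map_mul, hi, map_one])
      (fun hh => hi1 (e.injective (hh.trans (map_one e).symm)))
    refine ⟨e.symm k, r, hr, hr2, ?_, hd⟩
    rw [← ho, ← e.orderOf_eq (i * (e.symm k * i * (e.symm k)⁻¹))]
    simp
  · intro B hB
    rw [← Subgroup.card_map_of_injective (f := e.toMonoidHom) e.injective]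
    refine h2 _ ?_
    rintro _ ⟨b, hb, rfl⟩
    rw [← map_mul, hB b hb, map_one]
  · intro α hα hout
    have hc : ∀ (β : MulAut T) (x : S), MulAut.congr e β x = e (β (e.symm x)) := fun β x => rfl
    obtain ⟨x, hx3, hx1, hax⟩ := h3 (MulAut.congr e α) (by rw [← map_mul, hα, map_one]) (fun g hg => by
      refine hout (e.symm g) (MulEquiv.ext fun y => e.injective ?_)
      have h := congrArg (fun β : MulAut S => β (e y)) hg
      simp only [hc, e.symm_apply_apply] at h
      rw [h]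
      simp)
    refine ⟨e.symm x, by rw [← map_pow, hx3, map_one],
      fun hh => hx1 (e.symm.injective (hh.trans (map_one e.symm).symm)), e.injective ?_⟩
    rw [hc] at hax
    rw [hax]
    simp

section Suzuki

variable {F : Type*} [Field F] {m : ℕ}

theorem sz_facts (H : H7.SzHyp F m) : SimpleFacts (Cfsg.Sz F m) := by
  haveI := H.finite_Sz
  haveI := H.fin
  haveI : Fact (Nat.Prime 2) := ⟨Nat.prime_two⟩
  refine ⟨4 * (2 * m + 1), ?_, ?_, ?_⟩
  · intro i hi hi1
    obtain ⟨k, r, hr, hr2, ho, hord⟩ := H72.SzPair.exists_pair H hi hi1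
    exact ⟨k, r, hr, hr2, ho, fun d hd => H72.dvd_of_dvd_pow_sub_one (p := 2) (by exact_mod_cast hord) hd⟩
  · intro B hB
    have hBp : IsPGroup 2 B := fun b => ⟨1, Subtype.ext (by
      show (b : Cfsg.Sz F m) ^ (2 ^ 1) = 1
      rw [pow_one, pow_two, hB b b.2])⟩
    obtain ⟨P, hP⟩ := hBp.exists_le_sylow
    obtain ⟨x, hx⟩ := H.exists_conj_sylow P
    have hle : ∀ b ∈ B, ∃ c : F, x⁻¹ * b * x = H.us 0 c := by
      intro b hb
      have hbP := hP hb
      rw [hx, Subgroup.mem_map_equiv, MulAut.conj_symm_apply] at hbP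
      obtain ⟨a, c, hac⟩ := hbP
      refine ⟨c, ?_⟩
      have hsq : (H.us a c) ^ 2 = 1 := by
        rw [← hac, pow_two, show x⁻¹ * b * x * (x⁻¹ * b * x) = x⁻¹ * (b * b) * x by group, hB b hb]
        group
      rw [H.us_sq, ← H.us_zero, H.us_inj] at hsq
      have ha : a = 0 := by
        rcases mul_eq_zero.1 hsq.2 with h | h
        · exact (pow_eq_zero_iff (Nat.two_pow_pos _).ne').1 h
        · exact h
      rw [hac, ha]
    choose c hc using hle
    have hinj : Function.Injective (fun b : B => c b.1 b.2) := fun b b' h => by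
      have e : x⁻¹ * (b : Cfsg.Sz F m) * x = x⁻¹ * b' * x := by
        rw [hc _ b.2, hc _ b'.2]; exact congrArg _ h
      exact Subtype.ext (mul_left_cancel (mul_right_cancel e))
    have hle := Nat.card_le_card_of_injective _ hinj
    rw [H.card] at hle
    calc Nat.card B ^ 4 ≤ (2 ^ (2 * m + 1)) ^ 4 := Nat.pow_le_pow_left hle 4
      _ = 2 ^ (4 * (2 * m + 1)) := by rw [← pow_mul, mul_comm]
  · intro α hα hout
    exfalso
    have h1 : orderOf (QuotientGroup.mk α : Cfsg.Out (Cfsg.Sz F m)) ∣ 2 :=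
      orderOf_dvd_of_pow_eq_one (by rw [← QuotientGroup.mk_pow, pow_two, hα, QuotientGroup.mk_one])
    have h2 : orderOf (QuotientGroup.mk α : Cfsg.Out (Cfsg.Sz F m)) ∣ 2 * m + 1 :=
      H58.SzOut.card_out H ▸ orderOf_dvd_natCard _
    have h3 : Nat.gcd 2 (2 * m + 1) = 1 := Nat.coprime_two_left.2 (odd_two_mul_add_one m)
    have h4 := Nat.dvd_gcd h1 h2
    rw [h3, Nat.dvd_one, orderOf_eq_one_iff, QuotientGroup.eq_one_iff] at h4
    obtain ⟨g, hg⟩ := h4
    exact hout g hg.symm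

end Suzuki

section PSL

open Matrix MatrixGroups
open Cfsg.Agent.H6
open Cfsg.Agent.H77.PSL2Aut (exists_conj_field lo)

variable {F : Type*} [Field F] [Fintype F]

/-- The prime orders used in `PSL₂(3^(2n+1))`. -/
theorem exists_good_prime {n : ℕ} (hn : 1 ≤ n) :
    ∃ r, r.Prime ∧ r ≠ 2 ∧ r ∣ 3 ^ (2 * n + 1) - 1 ∧ ∀ [Fact r.Prime], 8 ≤ orderOf (2 : ZMod r) := by
  obtain ⟨j, hj⟩ : ∃ j, 3 ^ (2 * n + 1) = 4 * j + 3 := by
    have h9 : ∀ k, ∃ i, 9 ^ k = 4 * i + 1 := by
      intro k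
      induction k with
      | zero => exact ⟨0, rfl⟩
      | succ k ih => obtain ⟨i, hi⟩ := ih; exact ⟨9 * i + 2, by rw [pow_succ, hi]; ring⟩
    obtain ⟨i, hi⟩ := h9 n
    exact ⟨3 * i, by rw [pow_succ, pow_mul, show (3 : ℕ) ^ 2 = 9 from rfl, hi]; ring⟩
  have hj1 : 1 ≤ j := by
    have : 3 ^ 3 ≤ 3 ^ (2 * n + 1) := Nat.pow_le_pow_right (by norm_num) (by omega)
    norm_num at this
    omega
  set r := Nat.minFac (2 * j + 1) with hr
  have hrp : r.Prime := Nat.minFac_prime (by omega)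
  have hrd : r ∣ 2 * j + 1 := Nat.minFac_dvd _
  have hrq : r ∣ 3 ^ (2 * n + 1) - 1 := by
    rw [hj, show 4 * j + 3 - 1 = 2 * (2 * j + 1) by omega]
    exact dvd_mul_of_dvd_right hrd 2
  have hr2 : r ≠ 2 := fun h => by rw [h] at hrd; omega
  refine ⟨r, hrp, hr2, hrq, fun {_} => ?_⟩
  -- `3` is a square modulo `r`
  have hpow : ((3 : ℕ) : ZMod r) ^ (2 * n + 1) = 1 := by
    have h0 := (ZMod.natCast_eq_zero_iff _ r).2 hrq
    rw [Nat.cast_sub (Nat.one_le_pow _ _ (by norm_num)), sub_eq_zero] at h0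
    simpa using h0
  have hsq : ∃ y : ZMod r, y * y = ((3 : ℕ) : ZMod r) := ⟨((3 : ℕ) : ZMod r) ^ (n + 1), by
    rw [← pow_add, show n + 1 + (n + 1) = 2 * n + 1 + 1 by ring, pow_succ, hpow, one_mul]⟩
  have hr3 : r ≠ 3 := by
    rintro h
    rw [h] at hrq
    have h3 : 3 ∣ 3 ^ (2 * n + 1) := dvd_pow_self 3 (by omega)
    omega
  have hgen : ∀ s : ℕ, r = s → (∀ y : ZMod s, y * y ≠ ((3 : ℕ) : ZMod s)) → False := by
    rintro s rfl hs
    obtain ⟨y, hy⟩ := hsq
    exact hs y hy
  by_contra hlt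
  have hlt : orderOf (2 : ZMod r) < 8 := not_le.1 hlt
  have hne : (2 : ZMod r) ≠ 0 := fun h => hr2 ((Nat.prime_dvd_prime_iff_eq hrp Nat.prime_two).1
    ((ZMod.natCast_eq_zero_iff 2 r).1 (by exact_mod_cast h)))
  have hpos : 0 < orderOf (2 : ZMod r) := orderOf_pos_iff.2 (isOfFinOrder_iff_pow_eq_one.2
    ⟨r - 1, by have := hrp.two_le; omega, ZMod.pow_card_sub_one_eq_one hne⟩)
  have hdvd : r ∣ 2 ^ orderOf (2 : ZMod r) - 1 := by
    rw [← ZMod.natCast_eq_zero_iff, Nat.cast_sub (Nat.one_le_two_pow), sub_eq_zero]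
    simpa using pow_orderOf_eq_one (2 : ZMod r)
  have hlt' : ∀ d, 0 < d → d < 8 → r ∣ 2 ^ d - 1 → r = 3 ∨ r = 5 ∨ r = 7 ∨ r = 31 ∨ r = 127 := by
    intro d hd0 hd8 hd
    have hmem : ∀ M : ℕ, M ≠ 0 → r ∣ M → r ∈ M.divisors := fun M hM h => Nat.mem_divisors.2 ⟨h, hM⟩
    have := hrp.two_le
    have hnp : ∀ s : ℕ, ¬ s.Prime → r ≠ s := fun s hs h => hs (h ▸ hrp)
    interval_cases d
    · norm_num at hd; omega
    · norm_num at hd; exact Or.inl ((Nat.prime_dvd_prime_iff_eq hrp Nat.prime_three).1 hd)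
    · norm_num at hd; exact Or.inr (Or.inr (Or.inl ((Nat.prime_dvd_prime_iff_eq hrp (by norm_num)).1 hd)))
    · norm_num at hd
      rcases hrp.dvd_mul.1 (show r ∣ 3 * 5 from hd) with h | h
      · exact Or.inl ((Nat.prime_dvd_prime_iff_eq hrp Nat.prime_three).1 h)
      · exact Or.inr (Or.inl ((Nat.prime_dvd_prime_iff_eq hrp (by norm_num)).1 h))
    · norm_num at hd
      exact Or.inr (Or.inr (Or.inr (Or.inl ((Nat.prime_dvd_prime_iff_eq hrp (by norm_num)).1 hd))))
    · norm_num at hd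
      rcases hrp.dvd_mul.1 (show r ∣ 9 * 7 from hd) with h | h
      · exact Or.inl ((Nat.prime_dvd_prime_iff_eq hrp Nat.prime_three).1 (hrp.dvd_of_dvd_pow (n := 2) h))
      · exact Or.inr (Or.inr (Or.inl ((Nat.prime_dvd_prime_iff_eq hrp (by norm_num)).1 h)))
    · norm_num at hd
      exact Or.inr (Or.inr (Or.inr (Or.inr ((Nat.prime_dvd_prime_iff_eq hrp (by norm_num)).1 hd))))
  rcases hlt' _ hpos hlt hdvd with h | h | h | h | h
  · exact hr3 h
  · exact hgen 5 h (by decide)
  · exact hgen 7 h (by decide)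
  · exact hgen 31 h (by decide)
  · exact hgen 127 h (by decide +kernel)

theorem psl_pair {n : ℕ} (hn : 1 ≤ n) (hF : Fintype.card F = 3 ^ (2 * n + 1)) :
    ∃ r, r.Prime ∧ r ≠ 2 ∧ (∀ [Fact r.Prime], 8 ≤ orderOf (2 : ZMod r)) ∧
      ∀ s : PSL(2, F), s * s = 1 → s ≠ 1 → ∃ k, orderOf (s * (k * s * k⁻¹)) = r := by
  classical
  obtain ⟨r, hr, hr2, hrq, hord⟩ := exists_good_prime hn
  haveI : Fact r.Prime := ⟨hr⟩
  refine ⟨r, hr, hr2, fun {_} => hord, fun s hs hs1 => ?_⟩
  have h2 : (2 : F) ≠ 0 := two_ne_of_odd hF (Odd.pow (by decide))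
  haveI : Fintype Fˣ := Fintype.ofFinite _
  obtain ⟨c, hc⟩ := exists_prime_orderOf_dvd_card' (G := Fˣ) r (by
    rw [Nat.card_units, Nat.card_eq_fintype_card, hF]; exact hrq)
  let x₀ : SL(2, F) := sl2 (c : F) 0 0 ((c⁻¹ : Fˣ) : F) (by simp)
  let w : SL(2, F) := sl2 0 1 (-1) 0 (by ring)
  have hxpow : ∀ k : ℕ, (x₀ ^ k) 0 0 = ((c ^ k : Fˣ) : F) ∧ (x₀ ^ k) 1 1 = (((c⁻¹) ^ k : Fˣ) : F) ∧
      (x₀ ^ k) 0 1 = 0 ∧ (x₀ ^ k) 1 0 = 0 := by
    intro k
    induction k with
    | zero => simp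
    | succ k ih =>
      rw [pow_succ]
      obtain ⟨h00, h11, h01, h10⟩ := ih
      simp only [Matrix.SpecialLinearGroup.coe_mul, Matrix.mul_apply, Fin.sum_univ_two, h00, h11, h01, h10,
        pow_succ, Units.val_mul]
      simp [x₀, sl2]
  have hxr : x₀ ^ r = 1 := by
    obtain ⟨h00, h11, h01, h10⟩ := hxpow r
    have hcr : c ^ r = 1 := hc ▸ pow_orderOf_eq_one c
    apply sl2_ext <;> simp [h00, h11, h01, h10, hcr, inv_pow]
  have hx1 : π x₀ ≠ 1 := by
    intro h
    have h00 := (hxpow 1).1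
    rw [pow_one, pow_one] at h00
    have hc1 : c ≠ 1 := fun e => hr.ne_one (by rw [← hc, e, orderOf_one])
    rcases π_eq_iff.1 (h.trans (map_one π).symm) with e | e
    · rw [e] at h00; exact hc1 (Units.ext (by simpa using h00.symm))
    · rw [e] at h00
      have hcm : c = -1 := Units.ext (by simpa using h00.symm)
      have hd : orderOf c ∣ 2 := orderOf_dvd_of_pow_eq_one (by rw [hcm, neg_one_sq])
      rw [hc] at hd
      exact hr2 ((Nat.prime_dvd_prime_iff_eq hr Nat.prime_two).1 hd)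
  set x := π x₀ with hx
  set i := π w with hi
  have hxo : orderOf x = r := orderOf_eq_prime (by rw [hx, ← map_pow, hxr, map_one]) hx1
  have hio : orderOf i = 2 := (orderOf_π_eq_two_iff h2).2 (by simp [w, tr, sl2])
  have hw : w * x₀ * (w * x₀) = -1 := (sq_neg_one_iff h2).2 (by
    simp only [tr, Matrix.SpecialLinearGroup.coe_mul, Matrix.mul_apply, Fin.sum_univ_two]
    simp [w, x₀, sl2])
  have hj2 : i * x * (i * x) = 1 := by
    rw [hi, hx, ← map_mul, ← map_mul, ← map_one π]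
    exact π_eq_iff.2 (Or.inr hw)
  have hii : i * i = 1 := by
    have h := pow_orderOf_eq_one i
    rwa [hio, pow_two] at h
  have hj1 : i * x ≠ 1 := fun h => by
    have hxi : x = i := (mul_left_cancel (h.trans hii.symm) : x = i)
    rw [hxi, hio] at hxo
    exact hr2 hxo.symm
  have hso : orderOf s = 2 := orderOf_eq_prime (by rw [pow_two, hs]) hs1
  have hjo : orderOf (i * x) = 2 := orderOf_eq_prime (by rw [pow_two, hj2]) hj1
  obtain ⟨g, hg⟩ := isConj_iff.1 (isConj_involutions h2 hio hso)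
  obtain ⟨h, hh⟩ := isConj_iff.1 (isConj_involutions h2 hio hjo)
  refine ⟨g * h * g⁻¹, ?_⟩
  have hxe : i * (h * i * h⁻¹) = x := by rw [hh, ← mul_assoc, hii, one_mul]
  rw [← hg, show g * i * g⁻¹ * (g * h * g⁻¹ * (g * i * g⁻¹) * (g * h * g⁻¹)⁻¹) =
    MulAut.conj g (i * (h * i * h⁻¹)) by rw [MulAut.conj_apply]; group, MulEquiv.orderOf_eq, hxe, hxo]

set_option maxHeartbeats 1600000 in
theorem psl_outer {n : ℕ} (hF : Fintype.card F = 3 ^ (2 * n + 1)) (α : MulAut PSL(2, F))
    (hα : α * α = 1) (hout : ∀ g, α ≠ MulAut.conj g) :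
    ∃ x : PSL(2, F), x ^ 3 = 1 ∧ x ≠ 1 ∧ α x = x⁻¹ := by
  classical
  haveI : Fact (Nat.Prime 3) := ⟨Nat.prime_three⟩
  haveI : CharP F 3 := charP_of_card_eq_prime_pow hF
  have h3 : (3 : F) = 0 := by exact_mod_cast CharP.cast_eq_zero F 3
  have h2 : (2 : F) ≠ 0 := two_ne_of_odd hF (Odd.pow (by decide))
  obtain ⟨σ, M, M', hMM', hM'M, hM⟩ := exists_conj_field h2 α
  -- apply the description twice
  have hact : ∀ g : SL(2, F), ∃ g' : SL(2, F), α (π g) = π g' ∧
      ((g' : Matrix (Fin 2) (Fin 2) F) = M * (g : Matrix (Fin 2) (Fin 2) F).map σ * M' ∨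
        (g' : Matrix (Fin 2) (Fin 2) F) = -(M * (g : Matrix (Fin 2) (Fin 2) F).map σ * M')) := by
    intro g
    obtain ⟨g', hg'⟩ := π_surjective (α (π g))
    exact ⟨g', hg'.symm, hM g g' hg'.symm⟩
  have hαα : ∀ y, α (α y) = y := fun y => by rw [← MulAut.mul_apply, hα, MulAut.one_apply]
  set P := M * M.map σ
  set P' := M'.map σ * M'
  have hmapmul : ∀ A B : Matrix (Fin 2) (Fin 2) F, (A * B).map σ = A.map σ * B.map σ := fun A B =>
    Matrix.map_mul (f := (σ : F →+* F))
  have hPP' : P * P' = 1 := by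
    show M * M.map σ * (M'.map σ * M') = 1
    rw [Matrix.mul_assoc, ← Matrix.mul_assoc (M.map σ), ← hmapmul, hMM',
      Matrix.map_one σ (map_zero σ) (map_one σ), Matrix.one_mul, hMM']
  have htwice : ∀ g : SL(2, F), P * ((g : Matrix (Fin 2) (Fin 2) F).map σ).map σ * P' = g ∨
      P * ((g : Matrix (Fin 2) (Fin 2) F).map σ).map σ * P' = -(g : Matrix (Fin 2) (Fin 2) F) := by
    intro g
    obtain ⟨g', hg', e1⟩ := hact g
    have e2 := hM g' g (by rw [← hg', hαα])
    have hneg : ∀ A : Matrix (Fin 2) (Fin 2) F, (-A).map σ = -(A.map σ) := fun A => by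
      ext i j; exact map_neg σ _
    have hexp : M * (M * (g : Matrix (Fin 2) (Fin 2) F).map σ * M').map σ * M' =
        P * ((g : Matrix (Fin 2) (Fin 2) F).map σ).map σ * P' := by
      rw [hmapmul, hmapmul]; simp only [P, P', Matrix.mul_assoc]
    rcases e1 with e1 | e1 <;> rw [e1] at e2 <;>
      simp only [hneg, Matrix.mul_neg, Matrix.neg_mul, neg_neg, hexp] at e2
    · rcases e2 with e2 | e2
      · exact Or.inl e2.symm
      · exact Or.inr (neg_eq_iff_eq_neg.1 e2.symm)
    · rcases e2 with e2 | e2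
      · exact Or.inr (neg_eq_iff_eq_neg.1 e2.symm)
      · exact Or.inl e2.symm
  -- unipotent elements force `σ * σ = 1` and `P` scalar
  have hP'P : P' * P = 1 := mul_eq_one_comm.1 hPP'
  have hunip : ∀ g : SL(2, F), (g : Matrix (Fin 2) (Fin 2) F).trace = 2 →
      P * ((g : Matrix (Fin 2) (Fin 2) F).map σ).map σ * P' = g := by
    intro g hg
    refine (htwice g).resolve_right fun e => h2 ?_
    have := congrArg Matrix.trace e
    rw [Matrix.trace_mul_comm, ← Matrix.mul_assoc, hP'P, Matrix.one_mul, Matrix.trace_neg, hg] at this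
    have hσ2 : (((g : Matrix (Fin 2) (Fin 2) F).map σ).map σ).trace = 2 := by
      have : σ (σ ((g : Matrix (Fin 2) (Fin 2) F).trace)) = 2 := by rw [hg, map_ofNat, map_ofNat]
      rw [Matrix.trace_fin_two] at this ⊢
      simpa using this
    rw [hσ2] at this
    have h4 : (4 : F) = 0 := by linear_combination this
    linear_combination 2 * h3 - h4
  let U : F → SL(2, F) := fun x => sl2 1 x 0 1 (by ring)
  let L : F → SL(2, F) := fun x => sl2 1 0 x 1 (by ring)
  have hU : ∀ x, P * !![1, σ (σ x); 0, 1] * P' = !![1, x; 0, 1] := by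
    intro x
    convert hunip (U x) (by simp [U, sl2, Matrix.trace_fin_two]; norm_num) using 3 <;>
      (ext i j; fin_cases i <;> fin_cases j <;> simp [U, sl2])
  have hL : ∀ x, P * !![1, 0; σ (σ x), 1] * P' = !![1, 0; x, 1] := by
    intro x
    convert hunip (L x) (by simp [L, sl2, Matrix.trace_fin_two]; norm_num) using 3 <;>
      (ext i j; fin_cases i <;> fin_cases j <;> simp [L, sl2])
  have hU' : ∀ x, P * !![1, σ (σ x); 0, 1] = !![1, x; 0, 1] * P := fun x => by
    rw [← hU x, Matrix.mul_assoc (P * _), hP'P, Matrix.mul_one]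
  have hL' : ∀ x, P * !![1, 0; σ (σ x), 1] = !![1, 0; x, 1] * P := fun x => by
    rw [← hL x, Matrix.mul_assoc (P * _), hP'P, Matrix.mul_one]
  have hU1 := hU' 1
  have hL1 := hL' 1
  simp only [map_one] at hU1 hL1
  have e := congrFun (congrFun hU1 0) 0
  have e2 := congrFun (congrFun hU1 0) 1
  have e3 := congrFun (congrFun hL1 0) 0
  simp [Matrix.mul_apply, Fin.sum_univ_two] at e e2 e3
  -- `P` is scalar
  have hPs : P = P 0 0 • 1 := by
    ext i j
    fin_cases i <;> fin_cases j <;> simp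
    · linear_combination e3
    · linear_combination e
    · linear_combination -e2
  have hPne : P 0 0 ≠ 0 := fun h0 => by
    rw [hPs, h0, zero_smul, Matrix.zero_mul] at hPP'
    exact zero_ne_one (congrFun (congrFun hPP' 0) 0)
  have hσ2 : ∀ x, σ (σ x) = x := by
    intro x
    have := congrFun (congrFun (hU' x) 0) 1
    rw [hPs] at this
    simp [Matrix.mul_apply, Fin.sum_univ_two] at this
    refine mul_left_cancel₀ hPne ?_
    linear_combination this
  -- an automorphism of order two of a field of degree `2n+1` is trivial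
  have hσ : ∀ x, σ x = x := by
    letI : Algebra (ZMod 3) F := ZMod.algebra _ _
    let σ' : F ≃ₐ[ZMod 3] F := AlgEquiv.ofRingEquiv (f := σ) (fun x => by
      have hh : (σ : F →+* F).comp (algebraMap (ZMod 3) F) = algebraMap (ZMod 3) F := RingHom.ext_zmod _ _
      exact RingHom.congr_fun hh x)
    have hdim : Module.finrank (ZMod 3) F = 2 * n + 1 := by
      have hh := Module.card_eq_pow_finrank (K := ZMod 3) (V := F)
      rw [hF, ZMod.card] at hh
      exact Nat.pow_right_injective (show 2 ≤ 3 by norm_num) hh.symm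
    have h1 : orderOf σ' ∣ 2 := orderOf_dvd_of_pow_eq_one (AlgEquiv.ext fun x => by
      rw [pow_two, AlgEquiv.mul_apply, AlgEquiv.one_apply]; exact hσ2 x)
    have h2' : orderOf σ' ∣ 2 * n + 1 := by
      rw [← hdim, ← IsGalois.card_aut_eq_finrank]; exact orderOf_dvd_natCard _
    have h4 := Nat.dvd_gcd h1 h2'
    rw [show Nat.gcd 2 (2 * n + 1) = 1 from Nat.coprime_two_left.2 (odd_two_mul_add_one n), Nat.dvd_one,
      orderOf_eq_one_iff] at h4
    exact fun x => AlgEquiv.congr_fun h4 x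
  have hmap : ∀ A : Matrix (Fin 2) (Fin 2) F, A.map σ = A := fun A => by ext i j; exact hσ _
  have hMsq : M * M = P 0 0 • 1 := by rw [← hPs]; simp [P, hmap]
  set s := P 0 0
  have hM'eq : M' = s⁻¹ • M := by
    have : M * (s⁻¹ • M) = 1 := by rw [Matrix.mul_smul, hMsq, smul_smul, inv_mul_cancel₀ hPne, one_smul]
    calc M' = M' * (M * (s⁻¹ • M)) := by rw [this, Matrix.mul_one]
      _ = s⁻¹ • M := by rw [← Matrix.mul_assoc, hM'M, Matrix.one_mul]
  have hMdet : M.det ≠ 0 := fun h0 => by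
    have hh := congrArg Matrix.det hMM'
    rw [Matrix.det_mul, h0, zero_mul, Matrix.det_one] at hh
    exact zero_ne_one hh
  -- the inner case
  have hinner : ∀ c : F, c * c = M.det → False := by
    intro c hc
    have hc0 : c ≠ 0 := fun h0 => hMdet (by rw [← hc, h0, mul_zero])
    let g : SL(2, F) := ⟨c⁻¹ • M, by
      rw [Matrix.det_smul, ← hc, Fintype.card_fin]; field_simp⟩
    refine hout (π g) (MulEquiv.ext fun y => ?_)
    obtain ⟨y, rfl⟩ := π_surjective y
    obtain ⟨y', hy', e1⟩ := hact y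
    rw [hy', MulAut.conj_apply, ← map_inv, ← map_mul, ← map_mul]
    have hginv : ((g⁻¹ : SL(2, F)) : Matrix (Fin 2) (Fin 2) F) = c • M' := by
      have hgm : (g : Matrix (Fin 2) (Fin 2) F) * (c • M') = 1 := by
        show (c⁻¹ • M) * (c • M') = 1
        rw [Matrix.smul_mul, Matrix.mul_smul, smul_smul, inv_mul_cancel₀ hc0, one_smul, hMM']
      calc ((g⁻¹ : SL(2, F)) : Matrix (Fin 2) (Fin 2) F)
          = ((g⁻¹ : SL(2, F)) : Matrix (Fin 2) (Fin 2) F) * ((g : Matrix (Fin 2) (Fin 2) F) * (c • M')) := by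
            rw [hgm, Matrix.mul_one]
        _ = c • M' := by
            rw [← Matrix.mul_assoc, ← Matrix.SpecialLinearGroup.coe_mul, inv_mul_cancel,
              Matrix.SpecialLinearGroup.coe_one, Matrix.one_mul]
    have hval : ((g * y * g⁻¹ : SL(2, F)) : Matrix (Fin 2) (Fin 2) F) =
        M * (y : Matrix (Fin 2) (Fin 2) F) * M' := by
      rw [Matrix.SpecialLinearGroup.coe_mul, Matrix.SpecialLinearGroup.coe_mul, hginv]
      show c⁻¹ • M * _ * (c • M') = _
      rw [Matrix.smul_mul, Matrix.smul_mul, Matrix.mul_smul, smul_smul, inv_mul_cancel₀ hc0, one_smul]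
    rw [hmap] at e1
    refine π_eq_iff.2 (e1.imp (fun e => Subtype.ext (e.trans hval.symm)) fun e => Subtype.ext ?_)
    rw [Matrix.SpecialLinearGroup.coe_neg, hval]; exact e
  -- a non-scalar `M` has trace zero
  by_cases hscal : M 0 1 = 0 ∧ M 1 0 = 0 ∧ M 0 0 = M 1 1
  · exact (hinner (M 0 0) (by rw [Matrix.det_fin_two, hscal.1, hscal.2.2, zero_mul, sub_zero])).elim
  have htr : M 0 0 + M 1 1 = 0 := by
    have f01 := congrFun (congrFun hMsq 0) 1
    have f10 := congrFun (congrFun hMsq 1) 0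
    have f00 := congrFun (congrFun hMsq 0) 0
    have f11 := congrFun (congrFun hMsq 1) 1
    simp [Matrix.mul_apply, Fin.sum_univ_two] at f01 f10 f00 f11
    have g1 : (M 0 0 + M 1 1) * M 0 1 = 0 := by linear_combination f01
    have g2 : (M 0 0 + M 1 1) * M 1 0 = 0 := by linear_combination f10
    have g3 : (M 0 0 + M 1 1) * (M 0 0 - M 1 1) = 0 := by linear_combination f00 - f11
    by_contra h0
    exact hscal ⟨(mul_eq_zero.1 g1).resolve_left h0, (mul_eq_zero.1 g2).resolve_left h0,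
      sub_eq_zero.1 ((mul_eq_zero.1 g3).resolve_left h0)⟩
  have hsd : s = -M.det := by
    have f00 := congrFun (congrFun hMsq 0) 0
    simp [Matrix.mul_apply, Fin.sum_univ_two] at f00
    rw [Matrix.det_fin_two]
    linear_combination -f00 + M 0 0 * htr
  obtain ⟨c, hc⟩ : ∃ c, c * c = s := by
    by_contra hns
    push Not at hns
    have hq3 : Fintype.card F % 4 = 3 := by
      have h9 : ∀ k, 9 ^ k % 4 = 1 := fun k => by rw [Nat.pow_mod]; norm_num
      rw [hF, pow_succ, pow_mul, Nat.mul_mod, show (3 : ℕ) ^ 2 = 9 from rfl, h9]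
    have hnm : ¬ IsSquare (-1 : F) := fun hh => FiniteField.isSquare_neg_one_iff.1 hh hq3
    have hring : ringChar F ≠ 2 := by rw [ringChar.eq F 3]; decide
    have hm1 : quadraticChar F (-1) = -1 := (quadraticChar_neg_one_iff_not_isSquare).2 hnm
    have hms : quadraticChar F s = -1 := (quadraticChar_neg_one_iff_not_isSquare).2
      fun ⟨c, hc⟩ => hns c hc.symm
    have hdet : IsSquare M.det := by
      by_contra hd
      have hmd : quadraticChar F M.det = -1 := (quadraticChar_neg_one_iff_not_isSquare).2 hd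
      rw [hsd, ← neg_one_mul M.det, map_mul, hm1, hmd] at hms
      norm_num at hms
    obtain ⟨c, hc⟩ := hdet
    exact hinner c hc.symm
  have hc0 : c ≠ 0 := fun h0 => hPne (by rw [← hc, h0, mul_zero])
  set A := M + c • (1 : Matrix (Fin 2) (Fin 2) F) with hA
  set B := M - c • (1 : Matrix (Fin 2) (Fin 2) F) with hB
  obtain ⟨Y, hY⟩ : ∃ Y, A * Y * B ≠ 0 := by
    have hA0 : ∃ i j, A i j ≠ 0 := by
      by_contra h0; push Not at h0
      have a := h0 0 0; have b := h0 0 1; have d := h0 1 0; have e := h0 1 1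
      simp [hA] at a b d e
      exact hscal ⟨b, d, by linear_combination a - e⟩
    have hB0 : ∃ i j, B i j ≠ 0 := by
      by_contra h0; push Not at h0
      have a := h0 0 0; have b := h0 0 1; have d := h0 1 0; have e := h0 1 1
      simp [hB] at a b d e
      exact hscal ⟨b, d, by linear_combination a - e⟩
    obtain ⟨i, j, hij⟩ := hA0
    obtain ⟨k, l, hkl⟩ := hB0
    refine ⟨Matrix.single j k 1, fun h0 => ?_⟩
    have := congrFun (congrFun h0 i) l
    revert this hij hkl
    fin_cases i <;> fin_cases j <;> fin_cases k <;> fin_cases l <;>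
      simp [Matrix.mul_apply, Matrix.single, Fin.sum_univ_two] <;> tauto
  set N := A * Y * B
  have hBA : B * A = 0 := by
    rw [hA, hB, Matrix.sub_mul, Matrix.mul_add, Matrix.mul_add, hMsq, ← hc]
    simp only [Matrix.smul_mul, Matrix.mul_smul, Matrix.one_mul, Matrix.mul_one, smul_smul]
    abel
  have hMA : M * A = c • A := by
    rw [hA, Matrix.mul_add, hMsq, ← hc, Matrix.mul_smul, Matrix.mul_one, smul_add, smul_smul]; abel
  have hBM : B * M = (-c) • B := by
    rw [hB, Matrix.sub_mul, hMsq, ← hc, Matrix.smul_mul, Matrix.one_mul, smul_sub, smul_smul,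
      neg_mul, neg_smul, neg_smul]; abel
  have hNN : N * N = 0 := by
    show A * Y * B * (A * Y * B) = 0
    rw [Matrix.mul_assoc (A * Y) B, ← Matrix.mul_assoc B, ← Matrix.mul_assoc B, hBA]
    simp
  have hconj : M * N * M' = -N := by
    rw [hM'eq]
    show M * (A * Y * B) * (s⁻¹ • M) = -N
    rw [← Matrix.mul_assoc, ← Matrix.mul_assoc, hMA, Matrix.mul_smul, Matrix.mul_assoc _ B M, hBM]
    simp only [Matrix.smul_mul, Matrix.mul_smul, smul_smul]
    rw [show s⁻¹ * (-c * c) = -1 by rw [neg_mul, hc, mul_neg, inv_mul_cancel₀ hPne], neg_one_smul]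
  have hdet0 : N.det = 0 := by
    have := congrArg Matrix.det hNN
    rw [Matrix.det_mul, Matrix.det_zero] at this
    exact mul_self_eq_zero.1 this
  have htr0 : N 0 0 + N 1 1 = 0 := by
    have f00 := congrFun (congrFun hNN 0) 0
    have f11 := congrFun (congrFun hNN 1) 1
    simp [Matrix.mul_apply, Fin.sum_univ_two] at f00 f11
    rw [Matrix.det_fin_two] at hdet0
    have : (N 0 0 + N 1 1) ^ 2 = 0 := by linear_combination f00 + f11 + 2 * hdet0
    exact pow_eq_zero_iff two_ne_zero |>.1 this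
  have hdet1 : ∀ ε : F, (1 + ε • N).det = 1 := fun ε => by
    rw [Matrix.det_fin_two] at hdet0 ⊢
    simp
    linear_combination ε * htr0 + ε ^ 2 * hdet0
  let u : F → SL(2, F) := fun ε => ⟨1 + ε • N, hdet1 ε⟩
  have humul : ∀ a b, u a * u b = u (a + b) := fun a b => Subtype.ext (by
    show (1 + a • N) * (1 + b • N) = 1 + (a + b) • N
    rw [Matrix.mul_add, Matrix.add_mul, Matrix.add_mul, Matrix.one_mul, Matrix.one_mul, Matrix.mul_one,
      Matrix.smul_mul, Matrix.mul_smul, hNN, smul_zero, smul_zero, add_smul]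
    abel)
  have hu0 : u 0 = 1 := Subtype.ext (by show 1 + (0 : F) • N = 1; simp)
  refine ⟨π (u 1), ?_, ?_, ?_⟩
  · rw [← map_pow, pow_succ, pow_two, humul, humul]
    rw [show (1 : F) + 1 + 1 = 0 by linear_combination h3, hu0, map_one]
  · intro h
    rcases π_eq_iff.1 (h.trans (map_one π).symm) with e | e
    · have e := congrArg Subtype.val e
      have e : 1 + (1 : F) • N = 1 := e
      exact hY (by simpa using e)
    · have e := congrArg Subtype.val e
      rw [Matrix.SpecialLinearGroup.coe_neg, Matrix.SpecialLinearGroup.coe_one] at e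
      have e : 1 + (1 : F) • N = -1 := e
      have a := congrFun (congrFun e 0) 0
      have b := congrFun (congrFun e 1) 1
      simp at a b
      exact one_ne_zero (α := F) (by linear_combination a + b - htr0 - h3)
  · have hinv : (u 1)⁻¹ = u (-1) := inv_eq_of_mul_eq_one_right (by rw [humul, add_neg_cancel, hu0])
    rw [← map_inv, hinv]
    obtain ⟨y', hy', e1⟩ := hact (u 1)
    rw [hy']
    have hval : M * ((u 1 : SL(2, F)) : Matrix (Fin 2) (Fin 2) F).map σ * M' =
        ((u (-1) : SL(2, F)) : Matrix (Fin 2) (Fin 2) F) := by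
      show M * (1 + (1 : F) • N).map σ * M' = 1 + (-1 : F) • N
      rw [hmap, one_smul, Matrix.mul_add, Matrix.add_mul, Matrix.mul_one, hMM', hconj, neg_one_smul]
    refine π_eq_iff.2 (e1.imp (fun e => Subtype.ext (e.trans hval)) fun e => Subtype.ext ?_)
    rw [Matrix.SpecialLinearGroup.coe_neg, e, hval]

theorem psl_facts {n : ℕ} (hn : 1 ≤ n) (hF : Fintype.card F = 3 ^ (2 * n + 1)) :
    SimpleFacts (PSL(2, F)) := by
  classical
  haveI : Fact (Nat.Prime 2) := ⟨Nat.prime_two⟩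
  obtain ⟨r, hr, hr2, hord, hpair⟩ := psl_pair hn hF
  haveI : Fact r.Prime := ⟨hr⟩
  refine ⟨orderOf (2 : ZMod r), fun i hi hi1 => ?_, fun B hB => ?_, psl_outer hF⟩
  · obtain ⟨k, hk⟩ := hpair i hi hi1
    exact ⟨k, r, hr, hr2, hk, fun d hd => H72.dvd_of_dvd_pow_sub_one (p := 2) (by simp) hd⟩
  · have hBp : IsPGroup 2 B := fun b => ⟨1, Subtype.ext (by
      show (b : PSL(2, F)) ^ (2 ^ 1) = 1
      rw [pow_one, pow_two, hB b b.2])⟩
    obtain ⟨P, hP⟩ := hBp.exists_le_sylow
    have h8 : 3 ^ (2 * n + 1) % 8 = 3 := by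
      rw [pow_succ, pow_mul, Nat.mul_mod, Nat.pow_mod]; norm_num
    have h4 := (sylow_two_psl2 hF (Or.inl h8) P).card_four
    have hle := h4 ▸ Subgroup.card_le_of_le hP
    calc Nat.card B ^ 4 ≤ 4 ^ 4 := Nat.pow_le_pow_left hle 4
      _ = 2 ^ 8 := by norm_num
      _ ≤ _ := Nat.pow_le_pow_right (by norm_num) hord

end PSL

/-- The facts hold in both families. -/
theorem simpleFacts {X : Type*} [Group X] (hs : IsSimpleGroup X) (hna : ¬ IsMulCommutative X)
    (h : Cfsg.IsSuzukiOrPSL2OddPowerThree X) : SimpleFacts X := by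
  rcases h with ⟨F, hf, hfin, m, hm, hF, ⟨e⟩⟩ | ⟨F, hf, hfin, n, hF, ⟨e⟩⟩
  · have H := H7.SzHyp.of_fintype (F := F) hm hF
    exact (sz_facts H).of_equiv (e.trans H.lieEquiv.symm)
  · rcases Nat.eq_zero_or_pos n with rfl | hn
    · exfalso
      haveI : Finite X := Finite.of_equiv _ e.symm.toEquiv
      haveI : Group.IsSolvable X := H87.isSolvable_of_card_primeFactors_le_two (by
        rw [Nat.card_congr e.toEquiv, H6.card_psl2 hF]
        norm_num
        decide +kernel)
      exact hna ⟨⟨fun a b => IsSimpleGroup.comm_iff_isSolvable.2 inferInstance a b⟩⟩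
    · exact (psl_facts hn hF).of_equiv e

end Cfsg.Agent.H34.Suz
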